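import Cfsg.Agent.Lib.Dade.InducedSystem
import Cfsg.Agent.Lib.CharAux
import Cfsg.Agent.Lib.Char.Scalar
import Cfsg.Agent.Lib.CharClifford.Basic

/-!
The degree bound through a central section, and the coherence step it gives.
-/

set_option autoImplicit false

open scoped ComplexConjugate

namespace Cfsg.Agent.Lib.Dade

open Cfsg Cfsg.Agent.Lib.Char

universe u

variable {L : Type u} [Group L] [Fintype L]

/-- A character value is bounded by the degree. -/
theorem norm_le_charDegree {Γ : Type*} [Group Γ] [Finite Γ] {χ : Γ → ℂ} (h : IsCharacter Γ χ) (g : Γ) :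
    ‖χ g‖ ≤ charDegree χ := by
  obtain ⟨n, ρ, rfl⟩ := h
  refine (norm_character_le ρ g).trans ?_
  rw [charDegree_eq_of_apply_one (n := Module.finrank ℂ (Fin n → ℂ)) (Representation.char_one ρ)]

/-- The bound `θ(1)² ≤ [K : C]² [C : D]` when `D` is central in `C` modulo the kernel. -/
theorem sq_degree_le_section {K : Subgroup L} {θ : K → ℂ} (hθ : IsIrrCharacter K θ) (C D : Subgroup L)
    (hCK : C ≤ K) (hDC : D ≤ C)
    (hcent : ∀ (x : K) (y : K), (x : L) ∈ D → (y : L) ∈ C → θ (x * y * x⁻¹ * y⁻¹) = θ 1) :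
    charDegree θ ^ 2 ≤ C.relIndex K ^ 2 * D.relIndex C := by
  classical
  have := Fintype.ofFinite K
  set C' := C.subgroupOf K with hC'
  have := Fintype.ofFinite C'
  have hc := isCharacter_restrict (isCharacter_of_isIrr hθ) C'
  obtain ⟨a, ha⟩ := isCharacter_eq_sum hc
  obtain ⟨φ, hφ⟩ : ∃ φ, a φ ≠ 0 := by
    by_contra h
    push Not at h
    refine irr_degree_ne_zero hθ ?_
    have h1 := congrFun ha 1
    rw [Finset.sum_eq_zero fun φ _ => by rw [h φ, Nat.cast_zero, zero_smul]] at h1
    exact h1
  -- `θ` lies under the induced character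
  have hle : charDegree θ ≤ C'.index * charDegree (φ : C' → ℂ) := by
    obtain ⟨b, hb⟩ := isCharacter_eq_sum (isCharacter_indFun C' (isCharacter_of_isIrr φ.2))
    let x : IrrCharacter K := ⟨θ, hθ⟩
    have hbx : b x ≠ 0 := by
      intro h0
      have h1 : classInner (indFun C' (φ : C' → ℂ)) θ = 0 := by
        rw [hb, classInner_sum_left, Finset.sum_eq_zero]
        intro y _
        by_cases hy : y = x
        · subst hy; rw [h0, Nat.cast_zero, zero_smul, classInner_zero_left]
        · rw [classInner_smul_left, show θ = (x : K → ℂ) from rfl, classInner_irrCharacter, if_neg hy,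
            mul_zero]
      rw [classInner_indFun C' _ (isClassFunction_of_isIrr hθ), ha, classInner_sum_right,
        Finset.sum_eq_single φ (fun y _ hy => by
          rw [classInner_smul_right, classInner_irrCharacter, if_neg (Ne.symm hy), mul_zero])
          (fun h => absurd (Finset.mem_univ φ) h), classInner_smul_right, classInner_irr_self φ.2,
        mul_one, map_natCast, Nat.cast_eq_zero] at h1
      exact hφ h1
    rw [← charDegree_indFun C' (isCharacter_of_isIrr φ.2)]
    have h2 : charDegree (indFun C' (φ : C' → ℂ)) =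
        ∑ y : IrrCharacter K, b y * charDegree (y : K → ℂ) := by
      refine charDegree_eq_of_apply_one ?_
      rw [hb, Finset.sum_apply]
      push_cast
      exact Finset.sum_congr rfl fun y _ => by
        rw [Pi.smul_apply, smul_eq_mul, apply_one_eq_charDegree (isCharacter_of_isIrr y.2)]
    rw [h2]
    exact le_trans (Nat.le_mul_of_pos_left _ (Nat.pos_of_ne_zero hbx))
      (Finset.single_le_sum (f := fun y : IrrCharacter K => b y * charDegree (y : K → ℂ))
        (fun _ _ => Nat.zero_le _) (Finset.mem_univ x))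
  -- the elements of `D` act as scalars
  have hnorm : ∀ x : C', ((x : K) : L) ∈ D → ‖(φ : C' → ℂ) x‖ = charDegree (φ : C' → ℂ) := by
    intro x hx
    obtain ⟨k, ρ, hρ, hρφ⟩ := φ.2
    haveI := hρ
    have hker : ∀ c : C', (φ : C' → ℂ) c ≠ (φ : C' → ℂ) 1 → θ (c : K) ≠ θ 1 := by
      intro c hne heq
      -- a constituent of a character trivial at `c` is trivial at `c`
      apply hne
      have h1 : ∀ y : IrrCharacter C', a y ≠ 0 → (y : C' → ℂ) c = (y : C' → ℂ) 1 := by
        have hcl := congrFun ha c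
        have hcl1 := congrFun ha 1
        simp only [Finset.sum_apply, Pi.smul_apply, smul_eq_mul] at hcl hcl1
        change θ (c : K) = _ at hcl
        change θ 1 = _ at hcl1
        rw [heq, hcl1] at hcl
        intro y hy
        have hre : ∀ z ∈ (Finset.univ : Finset (IrrCharacter C')),
            ((a z : ℂ) * (z : C' → ℂ) c).re ≤ ((a z : ℂ) * (z : C' → ℂ) 1).re := by
          intro z _
          rw [Complex.mul_re, Complex.mul_re, Complex.natCast_re, Complex.natCast_im, zero_mul,
            zero_mul, sub_zero, sub_zero]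
          refine mul_le_mul_of_nonneg_left ((Complex.re_le_norm _).trans ?_) (Nat.cast_nonneg _)
          rw [apply_one_eq_charDegree (isCharacter_of_isIrr z.2), Complex.natCast_re]
          exact norm_le_charDegree (isCharacter_of_isIrr z.2) c
        have heqs : ∑ z : IrrCharacter C', ((a z : ℂ) * (z : C' → ℂ) c).re =
            ∑ z : IrrCharacter C', ((a z : ℂ) * (z : C' → ℂ) 1).re := by
          rw [← Complex.re_sum, ← Complex.re_sum, ← hcl]
        have := (Finset.sum_eq_sum_iff_of_le hre).mp heqs y (Finset.mem_univ y)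
        rw [Complex.mul_re, Complex.mul_re, Complex.natCast_re, Complex.natCast_im, zero_mul,
          zero_mul, sub_zero, sub_zero] at this
        have h2 := mul_left_cancel₀ (Nat.cast_ne_zero.mpr hy) this
        have h3 := norm_le_charDegree (isCharacter_of_isIrr y.2) c
        rw [apply_one_eq_charDegree (isCharacter_of_isIrr y.2), Complex.natCast_re] at h2
        rw [apply_one_eq_charDegree (isCharacter_of_isIrr y.2)]
        refine Complex.ext (by rw [h2, Complex.natCast_re]) ?_
        rw [Complex.natCast_im]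
        have h4 : ((y : C' → ℂ) c).re ^ 2 + ((y : C' → ℂ) c).im ^ 2 ≤
            (charDegree (y : C' → ℂ) : ℝ) ^ 2 := by
          rw [← Complex.sq_norm_sub_sq_im ((y : C' → ℂ) c), sub_add_cancel]
          exact pow_le_pow_left₀ (norm_nonneg _) h3 2
        rw [h2] at h4
        nlinarith
      exact h1 φ hφ
    have hcomm : ∀ c : C', ρ x * ρ c = ρ c * ρ x := by
      intro c
      have h1 : ρ (x * c * x⁻¹ * c⁻¹) = 1 := by
        refine CharKernel.rep_eq_one_of_char_eq ρ ?_
        by_contra hne
        exact hker _ (by rwa [← hρφ]) (by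
          simpa using hcent (x : K) (c : K) hx c.2)
      rw [← map_mul, ← map_mul, show x * c = (x * c * x⁻¹ * c⁻¹) * (c * x) by group, map_mul, h1,
        one_mul]
    obtain ⟨w, hw⟩ := CharClifford.exists_smul_of_commute ρ (ρ x) hcomm
    have hval : (φ : C' → ℂ) x = w * (φ : C' → ℂ) 1 := by
      rw [← hρφ]
      show LinearMap.trace ℂ _ (ρ x) = w * LinearMap.trace ℂ _ (ρ 1)
      rw [hw, map_one, map_smul, smul_eq_mul]
    have hw1 : ‖w‖ = 1 := by
      refine Complex.norm_eq_one_of_pow_eq_one (n := orderOf x) ?_ (orderOf_pos x).ne'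
      have h1 : (w • (1 : Module.End ℂ (Fin k → ℂ))) ^ orderOf x = 1 := by
        rw [← hw, ← map_pow, pow_orderOf_eq_one, map_one]
      rw [smul_pow, one_pow] at h1
      have h2 := congrArg (LinearMap.trace ℂ (Fin k → ℂ)) h1
      rw [map_smul, smul_eq_mul] at h2
      refine (mul_eq_right₀ ?_).mp h2
      rw [← map_one ρ]
      show ρ.character 1 ≠ 0
      rw [hρφ]
      exact irr_degree_ne_zero φ.2
    rw [hval, norm_mul, hw1, one_mul, apply_one_eq_charDegree (isCharacter_of_isIrr φ.2),
      Complex.norm_natCast]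
  have hsq : charDegree (φ : C' → ℂ) ^ 2 ≤ D.relIndex C := by
    set D'' : Finset C' := Finset.univ.filter fun x : C' => ((x : K) : L) ∈ D with hD''
    have hcardD : D''.card = Nat.card D := by
      rw [hD'', ← Fintype.card_subtype, ← Nat.card_eq_fintype_card]
      exact Nat.card_congr
        { toFun := fun x => ⟨((x.1 : K) : L), x.2⟩
          invFun := fun y => ⟨⟨⟨y, hCK (hDC y.2)⟩, hDC y.2⟩, y.2⟩
          left_inv := fun _ => rfl
          right_inv := fun _ => rfl }
    have h1 : ∑ x ∈ D'', Complex.normSq ((φ : C' → ℂ) x) ≤ (Nat.card C' : ℝ) := by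
      rw [← CharAux.sum_normSq_irr φ.2]
      exact Finset.sum_le_sum_of_subset_of_nonneg (Finset.subset_univ _)
        fun _ _ _ => Complex.normSq_nonneg _
    rw [Finset.sum_congr rfl (g := fun _ => (charDegree (φ : C' → ℂ) : ℝ) ^ 2) fun x hx => by
        rw [Complex.normSq_eq_norm_sq, hnorm x (Finset.mem_filter.mp hx).2],
      Finset.sum_const, nsmul_eq_mul, hcardD] at h1
    have hC : Nat.card C' = D.relIndex C * Nat.card D := by
      rw [Nat.card_congr (Subgroup.subgroupOfEquivOfLe hCK).toEquiv, Subgroup.relIndex,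
        ← Nat.card_congr (Subgroup.subgroupOfEquivOfLe hDC).toEquiv, Subgroup.index_mul_card]
    rw [hC] at h1
    have h2 : Nat.card D * charDegree (φ : C' → ℂ) ^ 2 ≤ D.relIndex C * Nat.card D := by exact_mod_cast h1
    rw [mul_comm (D.relIndex C)] at h2
    exact Nat.le_of_mul_le_mul_left h2 Nat.card_pos
  calc charDegree θ ^ 2 ≤ (C'.index * charDegree (φ : C' → ℂ)) ^ 2 := Nat.pow_le_pow_left hle 2
    _ = C.relIndex K ^ 2 * charDegree (φ : C' → ℂ) ^ 2 := by rw [mul_pow]; rfl
    _ ≤ _ := Nat.mul_le_mul_left _ hsq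

open scoped _root_.Classical in
/-- Coherence descends through a central step. -/
theorem descends_central_step {G : Type*} [Group G] [Fintype G] {K : Subgroup L} [K.Normal]
    (hsolv : Group.IsSolvable K) {τ : (L → ℂ) → (G → ℂ)} {R : (L → ℂ) → Finset (G → ℂ)}
    (hS : IsCoherenceSystem (inducedIrrAbove K ⊥) τ R) (A B C D : Subgroup L) [A.Normal] [B.Normal]
    (hAK : A < K) (hBK : B < K) (hDC : D ≤ C) (hCK : C ≤ K)
    (hcent : ∀ x ∈ D, ∀ y ∈ C, x * y * x⁻¹ * y⁻¹ ∈ B)
    (hA : IsCoherent (inducedIrrAbove K A) {1}ᶜ τ)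
    (hlt : 4 * C.index ^ 2 * D.relIndex C < (A.relIndex K - 1) ^ 2) :
    IsCoherent (inducedIrrAbove K B) {1}ᶜ τ := by
  have := Fintype.ofFinite K
  set S := inducedIrrAbove K ⊥ with hSdef
  have hn' : ∀ φ, ∃ k : ℕ, φ ∈ S → classInner φ φ = (k : ℂ) := by
    intro φ
    by_cases h : φ ∈ S
    · obtain ⟨N, -, hN, -⟩ := system_norm hS h
      exact ⟨N, fun _ => hN⟩
    · exact ⟨0, fun h' => absurd h' h⟩
  choose n hn using hn'
  set S₀ := aboveFinset K A
  set T := aboveFinset K B
  obtain ⟨θ₁, hθ₁, hθ₁d⟩ := exists_linear_above K hsolv A hAK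
  set χ₁ := indFun K (θ₁ : K → ℂ)
  have hχ₁ : χ₁ ∈ S₀ := (mem_aboveFinset K).mpr ((mem_above K).mpr ⟨θ₁, hθ₁, rfl⟩)
  have hd₁ : charDegree χ₁ = K.index := by rw [ind_degree K θ₁.2, hθ₁d, mul_one]
  have hsum : ∑ φ ∈ S₀, ((charDegree φ : ℝ) ^ 2 / (n φ : ℝ)) =
      (K.index : ℝ) * ((A.relIndex K : ℝ) - 1) := by
    rw [← sum_above K A hAK.le, ← sum_sq_div K (AboveChar K A) (fun g θ hθ => ⟨fun h => hθ.1 ?_,
      fun a ha => ?_⟩) n (fun θ hθ => hn _ (above_subset K A ((mem_above K).mpr ⟨θ, hθ, rfl⟩)))]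
    · refine Finset.sum_congr ?_ fun _ _ => rfl
      ext φ
      rw [mem_aboveFinset, mem_above]
      simp [eq_comm]
    · funext k
      have h1 := congrFun h ((MulAut.conjNormal g : MulAut K).symm k)
      replace h1 : conjChar K g (θ : K → ℂ) ((MulAut.conjNormal g : MulAut K).symm k) = 1 := h1
      rw [conjChar_apply] at h1
      rw [← h1]
      refine congrArg (θ : K → ℂ) (Subtype.ext ?_)
      change (k : L) = g * ((MulAut.conjNormal g : MulAut K).symm k : L) * g⁻¹
      rw [← MulAut.conjNormal_apply, MulEquiv.apply_symm_apply]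
    · show conjChar K g (θ : K → ℂ) a = conjChar K g (θ : K → ℂ) 1
      rw [conjChar_apply, conjChar_apply, hθ.2 _ ((inferInstance : A.Normal).conj_mem _ ha g)]
      exact congrArg _ (Subtype.ext (by simp))
  have hcoh := coherent_greedy hS charDegree n
    (fun φ hφ => apply_one_eq_charDegree (hS.isCharacter φ hφ)) hn S₀
    (by rw [coe_aboveFinset]; exact above_subset K A)
    (fun φ hφ => (mem_aboveFinset K).mpr (above_conj K A ((mem_aboveFinset K).mp hφ)))
    (by rw [coe_aboveFinset]; exact hA) hχ₁ T (by rw [coe_aboveFinset]; exact above_subset K B)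
    (fun φ hφ => (mem_aboveFinset K).mpr (above_conj K B ((mem_aboveFinset K).mp hφ)))
    (fun χ hχ => by
      obtain ⟨θ, -, rfl⟩ := (mem_above K).mp ((mem_aboveFinset K).mp hχ)
      rw [hd₁, ind_degree K θ.2]
      exact dvd_mul_right _ _)
    (fun χ hχ _ => by
      obtain ⟨θ, hθ, rfl⟩ := (mem_above K).mp ((mem_aboveFinset K).mp hχ)
      refine lt_of_lt_of_le ?_ (Finset.sum_le_sum_of_subset_of_nonneg Finset.subset_union_left
        fun _ _ _ => by positivity)
      rw [hsum, hd₁, ind_degree K θ.2]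
      have hb := sq_degree_le_section θ.2 C D hCK hDC fun x y hx hy =>
        hθ.2 _ (hcent x hx y hy)
      have hCidx : C.relIndex K * K.index = C.index := Subgroup.relIndex_mul_index hCK
      have hkey : 2 * K.index * charDegree (θ : K → ℂ) < A.relIndex K - 1 := by
        refine lt_of_pow_lt_pow_left₀ 2 (Nat.zero_le _) (lt_of_le_of_lt ?_ hlt)
        calc (2 * K.index * charDegree (θ : K → ℂ)) ^ 2
            = 4 * K.index ^ 2 * charDegree (θ : K → ℂ) ^ 2 := by ring
          _ ≤ 4 * K.index ^ 2 * (C.relIndex K ^ 2 * D.relIndex C) := Nat.mul_le_mul_left _ hb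
          _ = 4 * C.index ^ 2 * D.relIndex C := by rw [← hCidx]; ring
      have hpos : (0 : ℝ) < K.index := by
        exact_mod_cast Nat.pos_of_ne_zero (Subgroup.index_ne_zero_of_finite (H := K))
      have hkey' : (2 * K.index * charDegree (θ : K → ℂ) + 1 : ℕ) ≤ A.relIndex K - 1 := hkey
      have h4 : 2 * K.index * charDegree (θ : K → ℂ) + 2 ≤ A.relIndex K := by omega
      have h5 : (2 * (K.index : ℝ) * charDegree (θ : K → ℂ) + 2) ≤ (A.relIndex K : ℝ) := by
        exact_mod_cast h4
      push_cast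
      nlinarith)
  obtain ⟨θB, hθB, -⟩ := exists_linear_above K hsolv B hBK
  refine coherent_mono hS (above_subset K B) ?_ ⟨_, (mem_above K).mpr ⟨θB, hθB, rfl⟩⟩
    (fun φ hφ => above_conj K B hφ) hcoh
  rw [Finset.coe_union, coe_aboveFinset, coe_aboveFinset]
  exact Set.subset_union_right

end Cfsg.Agent.Lib.Dade
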