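import Cfsg.Agent.Lib.Dade.NilQuot
import Cfsg.Agent.Lib.Char.Degree

/-!
The induced characters nontrivial on a central subgroup form a coherent set.
-/

set_option autoImplicit false

open scoped ComplexConjugate

namespace Cfsg.Agent.Lib.Dade

open Cfsg Cfsg.Agent.Lib.Char

universe u

variable {L : Type u} [Group L] [Fintype L] (K : Subgroup L) [K.Normal]

/-- The characters of `K` nontrivial on `Z`. -/
def OffChar (Z : Subgroup L) (θ : IrrCharacter K) : Prop :=
  ∃ a : K, (a : L) ∈ Z ∧ (θ : K → ℂ) a ≠ (θ : K → ℂ) 1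

theorem offChar_iff {Z : Subgroup L} {θ : IrrCharacter K} :
    OffChar K Z θ ↔ AboveChar K ⊥ θ ∧ ¬ AboveChar K Z θ := by
  constructor
  · rintro ⟨a, ha, hne⟩
    exact ⟨⟨fun h => hne (by rw [h]), fun b hb => congrArg _ (Subtype.ext (Subgroup.mem_bot.mp hb))⟩,
      fun h => hne (h.2 a ha)⟩
  · rintro ⟨h1, h2⟩
    by_contra hno
    exact h2 ⟨h1.1, fun a ha => by_contra fun hne => hno ⟨a, ha, hne⟩⟩

theorem offChar_conj {Z : Subgroup L} [Z.Normal] (g : L) (θ : IrrCharacter K) (h : OffChar K Z θ) :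
    OffChar K Z ⟨conjChar K g (θ : K → ℂ), isIrrCharacter_conjChar K g θ.2⟩ := by
  obtain ⟨a, ha, hne⟩ := h
  refine ⟨⟨g⁻¹ * a * g, by simpa using (inferInstance : K.Normal).conj_mem a a.2 g⁻¹⟩,
    by simpa using (inferInstance : Z.Normal).conj_mem a ha g⁻¹, fun e => hne ?_⟩
  change conjChar K g (θ : K → ℂ) _ = conjChar K g (θ : K → ℂ) 1 at e
  rw [conjChar_apply, conjChar_apply_one] at e
  rw [← e]
  exact congrArg _ (Subtype.ext (by simp [mul_assoc]))

theorem mem_off {Z : Subgroup L} [Z.Normal] {φ : L → ℂ} :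
    φ ∈ inducedIrrAbove K ⊥ \ inducedIrrAbove K Z ↔
      ∃ θ : IrrCharacter K, OffChar K Z θ ∧ φ = indFun K (θ : K → ℂ) := by
  constructor
  · rintro ⟨h1, h2⟩
    obtain ⟨θ, hθ, rfl⟩ := (mem_above K).mp h1
    exact ⟨θ, (offChar_iff K).mpr ⟨hθ, fun h => h2 ((mem_above K).mpr ⟨θ, h, rfl⟩)⟩, rfl⟩
  · rintro ⟨θ, hθ, rfl⟩
    refine ⟨(mem_above K).mpr ⟨θ, ((offChar_iff K).mp hθ).1, rfl⟩, fun h => ?_⟩
    obtain ⟨η, hη, he⟩ := (mem_above K).mp h
    obtain ⟨g, hg⟩ := conj_of_indFun_eq K θ.2 η.2 he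
    have := offChar_conj K g θ hθ
    rw [show (⟨conjChar K g (θ : K → ℂ), isIrrCharacter_conjChar K g θ.2⟩ : IrrCharacter K) = η from
      Subtype.ext hg] at this
    exact ((offChar_iff K).mp this).2 hη

/-- A character value with real part equal to the degree is the degree. -/
theorem eq_one_of_re_eq {Γ : Type*} [Group Γ] [Finite Γ] {χ : Γ → ℂ} (h : IsCharacter Γ χ) {c : Γ}
    (hre : (χ c).re = (χ 1).re) : χ c = χ 1 := by
  have h3 := norm_le_charDegree h c
  rw [apply_one_eq_charDegree h, Complex.natCast_re] at hre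
  rw [apply_one_eq_charDegree h]
  refine Complex.ext (by rw [hre, Complex.natCast_re]) ?_
  rw [Complex.natCast_im]
  have h4 : (χ c).re ^ 2 + (χ c).im ^ 2 ≤ (charDegree χ : ℝ) ^ 2 := by
    rw [← Complex.sq_norm_sub_sq_im (χ c), sub_add_cancel]
    exact pow_le_pow_left₀ (norm_nonneg _) h3 2
  rw [hre] at h4
  nlinarith

theorem exists_ne_of_off {Z : Subgroup L} (hZK : Z ≤ K) {θ : IrrCharacter K}
    (hθ : OffChar K Z θ) : ∃ z ∈ Z, indFun K (θ : K → ℂ) z ≠ indFun K (θ : K → ℂ) 1 := by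
  classical
  obtain ⟨a, ha, hne⟩ := hθ
  refine ⟨a, ha, fun e => hne ?_⟩
  rw [show (1 : L) = ((1 : K) : L) from rfl, indFun_apply_of_mem, indFun_apply_of_mem] at e
  have h1 := mul_left_cancel₀ (inv_ne_zero (Nat.cast_ne_zero.mpr Nat.card_pos.ne')) e
  have hle : ∀ x ∈ (Finset.univ : Finset L),
      (conjChar K x (θ : K → ℂ) a).re ≤ (conjChar K x (θ : K → ℂ) 1).re := fun x _ => by
    rw [apply_one_eq_charDegree (isCharacter_conjChar K x (isCharacter_of_isIrr θ.2)),
      Complex.natCast_re]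
    exact (Complex.re_le_norm _).trans
      (norm_le_charDegree (isCharacter_conjChar K x (isCharacter_of_isIrr θ.2)) a)
  have h2 := (Finset.sum_eq_sum_iff_of_le hle).mp (by rw [← Complex.re_sum, ← Complex.re_sum, h1])
    1 (Finset.mem_univ _)
  rw [conjChar_one] at h2
  exact eq_one_of_re_eq (isCharacter_of_isIrr θ.2) h2

/-- The members are the irreducible characters of `L` nontrivial on `Z`. -/
theorem off_eq {Z : Subgroup L} [Z.Normal] (hZK : Z ≤ K)
    (hirr : ∀ χ ∈ inducedIrrAbove K ⊥ \ inducedIrrAbove K Z, IsIrrCharacter L χ) :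
    inducedIrrAbove K ⊥ \ inducedIrrAbove K Z =
      {χ | IsIrrCharacter L χ ∧ ∃ z ∈ Z, χ z ≠ χ 1} := by
  classical
  have := Fintype.ofFinite K
  ext χ
  constructor
  · intro h
    refine ⟨hirr χ h, ?_⟩
    obtain ⟨θ, hθ, rfl⟩ := (mem_off K).mp h
    exact exists_ne_of_off K hZK hθ
  · rintro ⟨hχ, z, hz, hne⟩
    obtain ⟨a, ha⟩ := isCharacter_eq_sum (isCharacter_restrict (isCharacter_of_isIrr hχ) K)
    obtain ⟨θ, hθ0, hθz⟩ : ∃ θ : IrrCharacter K, a θ ≠ 0 ∧ (θ : K → ℂ) ⟨z, hZK hz⟩ ≠ (θ : K → ℂ) 1 := by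
      by_contra hno
      push Not at hno
      refine hne ?_
      have h1 := congrFun ha ⟨z, hZK hz⟩
      have h2 := congrFun ha 1
      simp only [Finset.sum_apply, Pi.smul_apply, smul_eq_mul] at h1 h2
      refine h1.trans (Eq.trans (Finset.sum_congr rfl fun y _ => ?_) h2.symm)
      by_cases hy : a y = 0
      · rw [hy, Nat.cast_zero, zero_mul, zero_mul]
      · rw [hno y hy]
    have hoff : OffChar K Z θ := ⟨⟨z, hZK hz⟩, hz, hθz⟩
    have hmem := (mem_off K).mpr ⟨θ, hoff, rfl⟩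
    have hinner : classInner (indFun K (θ : K → ℂ)) χ = (a θ : ℂ) := by
      rw [classInner_indFun K _ (isClassFunction_of_isIrr hχ), ha, classInner_sum_right,
        Finset.sum_eq_single θ (fun y _ hy => by
          rw [classInner_smul_right, classInner_irrCharacter, if_neg (Ne.symm hy), mul_zero])
          (fun h => absurd (Finset.mem_univ θ) h), classInner_smul_right, classInner_irr_self θ.2,
        mul_one, map_natCast]
    by_contra hnot
    have : indFun K (θ : K → ℂ) ≠ χ := fun e => hnot (e ▸ hmem)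
    rw [classInner_irr_ne (hirr _ hmem) hχ this] at hinner
    exact hθ0 (Nat.cast_eq_zero.mp hinner.symm)

open scoped _root_.Classical in
/-- The coherence of the members. -/
theorem coherent_off {G : Type*} [Group G] [Fintype G] (hsolv : Group.IsSolvable K)
    {τ : (L → ℂ) → (G → ℂ)} {R : (L → ℂ) → Finset (G → ℂ)}
    (hS : IsCoherenceSystem (inducedIrrAbove K ⊥) τ R) (hodd : Odd (Nat.card L))
    (hnil : Group.IsNilpotent K) (hH₁K : ⁅K, K⁆ < K)
    (hfrob : ∀ k ∈ K, k ∉ ⁅K, K⁆ → ∀ x : L, x * k * x⁻¹ * k⁻¹ ∈ ⁅K, K⁆ → x ∈ K)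
    {Z : Subgroup L} [Z.Normal] (hZ1 : Z ≠ ⊥) (hZK : Z ≤ K) (hZc : ∀ z ∈ Z, ∀ k ∈ K, z * k = k * z)
    (hirr : ∀ χ ∈ inducedIrrAbove K ⊥ \ inducedIrrAbove K Z, IsIrrCharacter L χ) :
    IsCoherent (inducedIrrAbove K ⊥ \ inducedIrrAbove K Z) {1}ᶜ τ := by
  have := Fintype.ofFinite K
  set T := inducedIrrAbove K ⊥ \ inducedIrrAbove K Z with hTdef
  obtain ⟨θ₀, hθ₀⟩ : ∃ θ : IrrCharacter K, OffChar K Z θ := by
    obtain ⟨⟨z, hz⟩, hz0⟩ := Subgroup.ne_bot_iff_exists_ne_one.mp hZ1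
    have hz1 : z ≠ 1 := fun h => hz0 (Subtype.ext h)
    by_contra hno
    push Not at hno
    refine hz1 (congrArg Subtype.val (CharKernel.eq_one_of_forall_irr (g := (⟨z, hZK hz⟩ : K))
      fun χ => by_contra fun h => hno χ ⟨_, hz, h⟩))
  have hTne : T.Nonempty := ⟨_, (mem_off K).mpr ⟨θ₀, hθ₀, rfl⟩⟩
  have hTc : ∀ φ ∈ T, conjFun φ ∈ T := fun φ hφ =>
    ⟨above_conj K ⊥ hφ.1, fun h => hφ.2 (by simpa [conjFun_conjFun] using above_conj K Z h)⟩
  have hTS : IsCoherenceSystem T τ R := system_mono hS Set.diff_subset hTne hTc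
  by_cases hpp : ∃ p m : ℕ, p.Prime ∧ (⊥ : Subgroup L).relIndex K = p ^ m
  swap
  · haveI : ((⊥ : Subgroup L).subgroupOf K).Normal := inferInstance
    refine coherent_mono hS Set.diff_subset Set.diff_subset hTne hTc
      (coherent_of_good hsolv hS hodd bot_le inferInstance (H₁ := ⁅K, K⁆) (by rw [sup_bot_eq]) hH₁K
        hfrob (Or.inr (Or.inr (Or.inl hpp))))
  obtain ⟨p, m, hp, hpm⟩ := hpp
  rw [Subgroup.relIndex_bot_left] at hpm
  haveI := Fact.mk hp
  -- `e` is odd and prime to `p`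
  set e := K.index with he
  have heodd : Odd e := hodd.of_dvd_nat (Subgroup.index_dvd_card K)
  have hepos : 0 < e := Nat.pos_of_ne_zero Subgroup.index_ne_zero_of_finite
  have hecop : Nat.Coprime p e := by
    rw [hp.coprime_iff_not_dvd]
    intro hpe
    have h1 := dvd_section_sub_one hH₁K.le le_rfl (fun x hx y hy =>
      Subgroup.commutator_mem_commutator hx hy) hfrob
    have h2 : ⁅K, K⁆.relIndex K ∣ p ^ m := hpm ▸ Subgroup.index_dvd_card _
    obtain ⟨r, -, hr⟩ := (Nat.dvd_prime_pow hp).mp h2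
    have hr0 : r ≠ 0 := fun h => hH₁K.not_ge (Subgroup.relIndex_eq_one.mp (by rw [hr, h, pow_zero]))
    have h3 : p ∣ ⁅K, K⁆.relIndex K := hr ▸ dvd_pow_self p hr0
    have h4 := Nat.dvd_sub h3 (hpe.trans h1)
    rw [Nat.sub_sub_self (Nat.one_le_iff_ne_zero.mpr (by rw [hr]; exact pow_ne_zero _ hp.ne_zero))] at h4
    exact hp.ne_one (Nat.dvd_one.mp h4)
  have hdegp : ∀ θ : IrrCharacter K, ∃ k : ℕ, charDegree (θ : K → ℂ) = p ^ k := fun θ => by
    obtain ⟨k, -, hk⟩ := (Nat.dvd_prime_pow hp).mp (hpm ▸ charDegree_dvd_card θ.2)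
    exact ⟨k, hk⟩
  choose ex hex using hdegp
  set k := Z.relIndex K with hk
  have hkdvd : k ∣ p ^ m := hpm ▸ Subgroup.index_dvd_card _
  -- all squares of degrees of members of degree at least `p ^ b` are divisible by `p ^ (2b)`
  have hbound : ∀ θ : IrrCharacter K, (p ^ ex θ) ^ 2 ∣ k := by
    intro θ
    have h := sq_degree_le_section θ.2 K Z le_rfl hZK fun x y hx hy => by
      have h1 : x * y * x⁻¹ * y⁻¹ = 1 := Subtype.ext (by
        show (x : L) * y * (x : L)⁻¹ * (y : L)⁻¹ = 1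
        rw [hZc _ hx _ y.2]; group)
      rw [h1]
    rw [Subgroup.relIndex_self, one_pow, one_mul, hex θ, ← hk] at h
    obtain ⟨i, -, hi⟩ := (Nat.dvd_prime_pow hp).mp hkdvd
    rw [hi, ← pow_mul] at h ⊢
    exact pow_dvd_pow p ((Nat.pow_le_pow_iff_right hp.one_lt).mp h)
  have hsumoff : ∑ θ ∈ Finset.univ.filter (OffChar K Z), charDegree (θ : K → ℂ) ^ 2 + k = p ^ m := by
    have h1 := sum_above K ⊥ bot_le
    have h2 := sum_above K Z hZK
    rw [Subgroup.relIndex_bot_left, hpm] at h1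
    rw [← Finset.sum_filter_add_sum_filter_not (Finset.univ.filter (AboveChar K ⊥))
      (AboveChar K Z), Finset.filter_filter, Finset.filter_filter,
      show Finset.univ.filter (fun θ => AboveChar K ⊥ θ ∧ AboveChar K Z θ) =
        Finset.univ.filter (AboveChar K Z) from Finset.filter_congr fun θ _ =>
          ⟨fun h => h.2, fun h => ⟨⟨h.1, fun b hb =>
            congrArg _ (Subtype.ext (Subgroup.mem_bot.mp hb))⟩, h⟩⟩, h2,
      show Finset.univ.filter (fun θ => AboveChar K ⊥ θ ∧ ¬ AboveChar K Z θ) =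
        Finset.univ.filter (OffChar K Z) from
          Finset.filter_congr fun θ _ => (offChar_iff K).symm] at h1
    rw [← Nat.cast_inj (R := ℝ)]
    push_cast
    rw [← hk] at h1
    push_cast at h1
    linarith
  have hmem : ∀ φ, φ ∈ T ↔ ∃ θ : IrrCharacter K, OffChar K Z θ ∧ φ = indFun K (θ : K → ℂ) :=
    fun φ => mem_off K
  -- the smallest degree
  obtain ⟨θ₁, hθ₁, hmin⟩ := Finset.exists_min_image (Finset.univ.filter (OffChar K Z))
    (fun θ : IrrCharacter K => charDegree (θ : K → ℂ)) ⟨θ₀, Finset.mem_filter.mpr ⟨Finset.mem_univ _, hθ₀⟩⟩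
  replace hθ₁ := (Finset.mem_filter.mp hθ₁).2
  replace hmin : ∀ θ : IrrCharacter K, OffChar K Z θ →
      charDegree (θ₁ : K → ℂ) ≤ charDegree (θ : K → ℂ) :=
    fun θ h => hmin θ (Finset.mem_filter.mpr ⟨Finset.mem_univ _, h⟩)
  let TF : Finset (L → ℂ) :=
    (Finset.univ.filter (OffChar K Z)).image fun θ : IrrCharacter K => indFun K (θ : K → ℂ)
  have hTF : ∀ φ, φ ∈ TF ↔ φ ∈ T := fun φ => by
    rw [hmem, Finset.mem_image]
    simp [eq_comm]
  have hTFc : (↑TF : Set (L → ℂ)) = T := Set.ext hTF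
  have hconjd : ∀ φ ∈ T, charDegree (conjFun φ) = charDegree φ := fun φ hφ => by
    obtain ⟨d, -, h1, h2⟩ := system_degree hTS hφ
    rw [charDegree_eq_of_apply_one h1, charDegree_eq_of_apply_one h2]
  set S₀ := TF.filter fun φ => charDegree φ = e * charDegree (θ₁ : K → ℂ) with hS₀def
  have hS₀ : (↑S₀ : Set (L → ℂ)) ⊆ T := fun φ hφ => (hTF φ).mp (Finset.mem_filter.mp hφ).1
  have hS₀c : ∀ φ ∈ S₀, conjFun φ ∈ S₀ := fun φ hφ => by
    obtain ⟨h1, h2⟩ := Finset.mem_filter.mp hφ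
    exact Finset.mem_filter.mpr ⟨(hTF _).mpr (hTc φ ((hTF φ).mp h1)), by
      rw [hconjd φ ((hTF φ).mp h1), h2]⟩
  set χ₁ := indFun K (θ₁ : K → ℂ)
  have hd₁ : charDegree χ₁ = e * charDegree (θ₁ : K → ℂ) := ind_degree K θ₁.2
  have hχ₁ : χ₁ ∈ S₀ := Finset.mem_filter.mpr ⟨(hTF _).mpr ((hmem _).mpr ⟨θ₁, hθ₁, rfl⟩), hd₁⟩
  have hcoh₀ : IsCoherent (↑S₀ : Set (L → ℂ)) {1}ᶜ τ := by
    refine S1517.result _ τ R (system_mono hTS hS₀ ⟨χ₁, hχ₁⟩ hS₀c) fun φ hφ ψ hψ => ?_
    rw [apply_one_eq_charDegree (hTS.isCharacter φ (hS₀ hφ)),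
      apply_one_eq_charDegree (hTS.isCharacter ψ (hS₀ hψ)), (Finset.mem_filter.mp hφ).2,
      (Finset.mem_filter.mp hψ).2]
  have hcoh := coherent_greedy hTS charDegree (fun _ => 1)
    (fun φ hφ => apply_one_eq_charDegree (hTS.isCharacter φ hφ))
    (fun φ hφ => by rw [classInner_irr_self (hirr φ hφ), Nat.cast_one])
    S₀ hS₀ hS₀c hcoh₀ hχ₁ TF hTFc.le (fun φ hφ => (hTF _).mpr (hTc φ ((hTF φ).mp hφ)))
    (fun χ hχ => by
      obtain ⟨θ, hθ, rfl⟩ := (hmem _).mp ((hTF χ).mp hχ)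
      rw [hd₁, ind_degree K θ.2, hex θ₁, hex θ]
      refine Nat.mul_dvd_mul_left _ (pow_dvd_pow p ((Nat.pow_le_pow_iff_right hp.one_lt).mp ?_))
      rw [← hex θ₁, ← hex θ]
      exact hmin θ hθ)
    (fun χ hχ hχ0 => by
      obtain ⟨θ, hθ, rfl⟩ := (hmem _).mp ((hTF χ).mp hχ)
      set b := ex θ with hb
      have hab : charDegree (θ₁ : K → ℂ) < p ^ b := by
        refine lt_of_le_of_ne (hex θ ▸ hmin θ hθ) fun h => hχ0 (Finset.mem_filter.mpr ⟨hχ, ?_⟩)
        rw [ind_degree K θ.2, hex θ, h]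
      let P : IrrCharacter K → Prop := fun η => OffChar K Z η ∧ charDegree (η : K → ℂ) < p ^ b
      have hPconj : ∀ (g : L) (η : IrrCharacter K), P η →
          P ⟨conjChar K g (η : K → ℂ), isIrrCharacter_conjChar K g η.2⟩ := fun g η hη =>
        ⟨offChar_conj K g η hη.1, by
          refine lt_of_eq_of_lt (charDegree_eq_of_apply_one ?_) hη.2
          show conjChar K g (η : K → ℂ) 1 = _
          rw [conjChar_apply_one, apply_one_eq_charDegree (isCharacter_of_isIrr η.2)]⟩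
      have hsum := sum_sq_div K P hPconj (fun _ => 1) fun η hη => by
        rw [classInner_irr_self (hirr _ ((hmem _).mpr ⟨η, hη.1, rfl⟩)), Nat.cast_one]
      set X := ∑ η ∈ Finset.univ.filter P, charDegree (η : K → ℂ) ^ 2 with hX
      set I := (Finset.univ.filter P).image fun η : IrrCharacter K => indFun K (η : K → ℂ) with hI
      have hsum' : ∑ φ ∈ I, (charDegree φ : ℝ) ^ 2 = (e : ℝ) * (X : ℝ) := by
        simp only [Nat.cast_one, div_one] at hsum
        rw [hI, hX]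
        push_cast
        convert hsum
      -- `e` divides `X`
      have heX : e ∣ X := by
        refine Dvd.intro (∑ φ ∈ I, (charDegree φ / e) ^ 2) ?_
        have h1 : ((∑ φ ∈ I, (e * (charDegree φ / e)) ^ 2 : ℕ) : ℝ) = ((e * X : ℕ) : ℝ) := by
          push_cast
          rw [← hsum']
          refine Finset.sum_congr rfl fun φ hφ => ?_
          obtain ⟨η, -, rfl⟩ := Finset.mem_image.mp hφ
          rw [ind_degree K η.2, Nat.mul_div_cancel_left _ hepos]
          simp [he]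
        have h2 := Nat.cast_injective h1
        simp only [mul_pow, ← Finset.mul_sum] at h2
        rw [pow_two, mul_assoc] at h2
        exact Nat.eq_of_mul_eq_mul_left hepos h2
      -- `p ^ (2b)` divides `X`
      have hpX : (p ^ b) ^ 2 ∣ X := by
        rw [← Finset.sum_filter_add_sum_filter_not (Finset.univ.filter (OffChar K Z))
          (fun η : IrrCharacter K => charDegree (η : K → ℂ) < p ^ b), Finset.filter_filter,
          ← hX] at hsumoff
        have hY : (p ^ b) ^ 2 ∣ ∑ η ∈ (Finset.univ.filter (OffChar K Z)).filter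
            (fun η : IrrCharacter K => ¬ charDegree (η : K → ℂ) < p ^ b), charDegree (η : K → ℂ) ^ 2 := by
          refine Finset.dvd_sum fun η hη => pow_dvd_pow_of_dvd ?_ 2
          have h3 := (Finset.mem_filter.mp hη).2
          rw [hex η] at h3 ⊢
          exact pow_dvd_pow p ((Nat.pow_le_pow_iff_right hp.one_lt).mp (not_lt.mp h3))
        have hk2 : (p ^ b) ^ 2 ∣ k := hbound θ
        have htot : (p ^ b) ^ 2 ∣ p ^ m := hk2.trans hkdvd
        rw [← hsumoff, Nat.dvd_add_left hk2, Nat.dvd_add_left hY] at htot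
        exact htot
      -- `X` is even
      have h2X : 2 ∣ X := by
        rw [← ZMod.natCast_eq_zero_iff, hX, Nat.cast_sum]
        let cj : IrrCharacter K → IrrCharacter K := fun η =>
          ⟨fun x => conj ((η : K → ℂ) x), isIrrCharacter_conj η.2⟩
        have hdeg : ∀ η : IrrCharacter K, charDegree (cj η : K → ℂ) = charDegree (η : K → ℂ) := fun η =>
          charDegree_eq_of_apply_one (by
            show conj ((η : K → ℂ) 1) = _
            rw [apply_one_eq_charDegree (isCharacter_of_isIrr η.2), map_natCast])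
        refine Finset.sum_involution (fun η _ => cj η) (fun η _ => ?_) (fun η hη _ => ?_)
          (fun η hη => ?_) fun η _ => Subtype.ext (funext fun x => Complex.conj_conj _)
        · rw [hdeg η, ← two_nsmul, nsmul_eq_mul, show ((2 : ℕ) : ZMod 2) = 0 by decide, zero_mul]
        · intro hfix
          have hTη := (hmem _).mpr ⟨η, (Finset.mem_filter.mp hη).2.1, rfl⟩
          refine hTS.conj_ne _ hTη ?_
          rw [conjFun_indFun K]
          exact congrArg (indFun K) (congrArg Subtype.val hfix)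
        · obtain ⟨a, ha, hne⟩ := (Finset.mem_filter.mp hη).2.1
          exact Finset.mem_filter.mpr ⟨Finset.mem_univ _, ⟨a, ha, fun h => hne (by
            have := congrArg conj h
            simpa [cj] using this)⟩, by rw [hdeg η]; exact (Finset.mem_filter.mp hη).2.2⟩
      have hXpos : 0 < X := Finset.sum_pos' (fun _ _ => Nat.zero_le _)
        ⟨θ₁, Finset.mem_filter.mpr ⟨Finset.mem_univ _, hθ₁, hab⟩, by
          rw [hex θ₁]; exact pow_pos (pow_pos hp.pos _) _⟩
      have hpodd : Odd p := by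
        obtain ⟨r, hr⟩ : ∃ r, m = r + 1 := Nat.exists_eq_succ_of_ne_zero fun h0 => by
          rw [h0, pow_zero] at hpm
          exact (Subgroup.one_lt_card_iff_ne_bot K).mpr (fun h => hZ1 (le_bot_iff.mp (h ▸ hZK)))
            |>.ne' hpm
        exact hodd.of_dvd_nat ((Dvd.intro_left (p ^ r) (by rw [← pow_succ, ← hr, ← hpm])).trans
          (Subgroup.card_subgroup_dvd_card K))
      have hdiv : 2 * e * (p ^ b) ^ 2 ∣ X := by
        refine Nat.Coprime.mul_dvd_of_dvd_of_dvd ?_ (Nat.Coprime.mul_dvd_of_dvd_of_dvd ?_ h2X heX) hpX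
        · exact ((Nat.Coprime.mul_left (Nat.coprime_two_left.mpr (hpodd.pow)) ((hecop.symm).pow_right b))).pow_right 2
        · exact Nat.coprime_two_left.mpr heodd
      have hlt : 2 * e * (p ^ b * charDegree (θ₁ : K → ℂ)) < X :=
        lt_of_lt_of_le (Nat.mul_lt_mul_of_pos_left (by
          rw [pow_two]; exact Nat.mul_lt_mul_of_pos_left hab (pow_pos hp.pos _)) (by positivity))
          (Nat.le_of_dvd hXpos hdiv)
      have hsub : I ⊆ S₀ ∪ TF.filter fun φ => charDegree φ < charDegree (indFun K (θ : K → ℂ)) := by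
        intro φ hφ
        obtain ⟨η, hη, rfl⟩ := Finset.mem_image.mp hφ
        obtain ⟨-, hηoff, hηb⟩ := Finset.mem_filter.mp hη
        refine Finset.mem_union_right _ (Finset.mem_filter.mpr ⟨(hTF _).mpr
          ((hmem _).mpr ⟨η, hηoff, rfl⟩), ?_⟩)
        rw [ind_degree K η.2, ind_degree K θ.2, hex θ]
        exact Nat.mul_lt_mul_of_pos_left hηb hepos
      refine lt_of_lt_of_le ?_ (Finset.sum_le_sum_of_subset_of_nonneg hsub fun _ _ _ => by positivity)
      simp only [Nat.cast_one, div_one]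
      rw [hsum', hd₁, ind_degree K θ.2, hex θ, ← hb]
      have h3 : ((e * (2 * e * (p ^ b * charDegree (θ₁ : K → ℂ))) : ℕ) : ℝ) < ((e * X : ℕ) : ℝ) :=
        Nat.cast_lt.mpr (Nat.mul_lt_mul_of_pos_left hlt hepos)
      rw [← he]
      push_cast at h3 ⊢
      linarith)
  refine coherent_mono hTS le_rfl ?_ hTne hTc hcoh
  rw [Finset.coe_union, hTFc]
  exact Set.subset_union_right

end Cfsg.Agent.Lib.Dade
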