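import Cfsg.Agent.Lib.Dade.CoherenceExt
import Mathlib.Tactic

/-! Basic consequences of a coherence system. -/

set_option autoImplicit false

namespace Cfsg.Agent.Lib.Dade

open Cfsg Cfsg.Agent.Lib.Char
open scoped ComplexConjugate

variable {L : Type*} [Group L] [Fintype L] {G : Type*} [Group G] [Fintype G]

/-- Integral projections on an orthonormal set with prescribed sum. -/
theorem exists_proj (U : Finset (G → ℂ)) (hgen : ∀ α ∈ U, IsGeneralizedCharacter G α) {x : G → ℂ}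
    (hx : IsGeneralizedCharacter G x) (N : ℕ) (hsum : classInner x (∑ α ∈ U, α) = N) :
    ∃ c : (G → ℂ) → ℝ, (∀ α ∈ U, classInner x α = (c α : ℂ)) ∧
      (N : ℝ) ≤ ∑ α ∈ U, c α ^ 2 ∧
      (∑ α ∈ U, c α ^ 2 ≤ N → ∃ A : Finset (G → ℂ), A ⊆ U ∧ A.card = N ∧
        (∀ α ∈ A, c α = 1) ∧ ∀ α ∈ U, α ∉ A → c α = 0) := by
  classical
  have h : ∀ α, ∃ z : ℤ, α ∈ U → classInner x α = z := fun α => by
    by_cases hα : α ∈ U
    · obtain ⟨z, hz⟩ := classInner_int hx (hgen α hα)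
      exact ⟨z, fun _ => hz⟩
    · exact ⟨0, fun h => absurd h hα⟩
  choose z hz using h
  have hN : ∑ α ∈ U, z α = (N : ℤ) := by
    rw [classInner_sum_right, Finset.sum_congr rfl fun α hα => hz α hα] at hsum
    exact_mod_cast hsum
  refine ⟨fun α => (z α : ℝ), fun α hα => by rw [hz α hα, Complex.ofReal_intCast], ?_, fun hle => ?_⟩
  · dsimp only
    have h1 : (N : ℤ) ≤ ∑ α ∈ U, z α ^ 2 := hN ▸ Finset.sum_le_sum fun α _ => Int.le_self_sq _
    exact_mod_cast h1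
  · dsimp only at hle ⊢
    have hle' : ∑ α ∈ U, z α ^ 2 ≤ (N : ℤ) := by exact_mod_cast hle
    have h0 : ∑ α ∈ U, (z α ^ 2 - z α) = 0 := by
      refine le_antisymm ?_ (Finset.sum_nonneg fun α _ => sub_nonneg.mpr (Int.le_self_sq _))
      rw [Finset.sum_sub_distrib, hN]
      linarith
    have h01 : ∀ α ∈ U, z α = 0 ∨ z α = 1 := fun α hα => by
      have := (Finset.sum_eq_zero_iff_of_nonneg fun β _ => sub_nonneg.mpr (Int.le_self_sq _)).mp h0 α hα
      rcases mul_eq_zero.mp (show z α * (z α - 1) = 0 by linarith) with h | h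
      · exact Or.inl h
      · exact Or.inr (sub_eq_zero.mp h)
    refine ⟨U.filter fun α => z α = 1, Finset.filter_subset _ _, ?_,
      fun α hα => by rw [(Finset.mem_filter.mp hα).2, Int.cast_one], fun α hα hαA => ?_⟩
    · have h2 : ∀ α ∈ U, z α = if z α = 1 then 1 else 0 := fun α hα => by
        rcases h01 α hα with h | h <;> simp [h]
      rw [Finset.sum_congr rfl h2, Finset.sum_boole] at hN
      exact_mod_cast hN
    · rcases h01 α hα with h | h
      · rw [h, Int.cast_zero]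
      · exact absurd (Finset.mem_filter.mpr ⟨hα, h⟩) hαA

variable {S : Set (L → ℂ)} {τ : (L → ℂ) → G → ℂ} {R : (L → ℂ) → Finset (G → ℂ)}
variable (hS : IsCoherenceSystem S τ R)
include hS

theorem system_ne_zero {χ : L → ℂ} (h : χ ∈ S) : χ ≠ 0 := fun e =>
  hS.conj_ne χ h (by rw [e]; funext x; simp [conjFun])

theorem system_finite : S.Finite :=
  finite_of_orth hS.orthogonal fun _ h => system_ne_zero hS h

theorem system_norm {χ : L → ℂ} (h : χ ∈ S) :
    ∃ N : ℕ, 0 < N ∧ classInner χ χ = N ∧ classInner (conjFun χ) (conjFun χ) = N ∧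
      classInner χ (conjFun χ) = 0 ∧ classInner (conjFun χ) χ = 0 := by
  obtain ⟨N, hN⟩ := classInner_natCast (hS.isCharacter χ h) (hS.isCharacter χ h)
  refine ⟨N, Nat.pos_of_ne_zero fun e => classInner_self_ne_zero (system_ne_zero hS h)
    (by rw [hN, e, Nat.cast_zero]), hN, by rw [classInner_conjFun, hN, map_natCast],
    hS.orthogonal χ h _ (hS.conj_mem χ h) (hS.conj_ne χ h).symm,
    hS.orthogonal _ (hS.conj_mem χ h) χ h (hS.conj_ne χ h)⟩

theorem system_degree {χ : L → ℂ} (h : χ ∈ S) :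
    ∃ d : ℕ, 0 < d ∧ χ 1 = d ∧ conjFun χ 1 = d := by
  obtain ⟨d, hd, hd1⟩ := exists_degree (hS.isCharacter χ h) (system_ne_zero hS h)
  exact ⟨d, hd, hd1, conjFun_one hd1⟩

theorem system_diff {χ : L → ℂ} (h : χ ∈ S) : χ - conjFun χ ∈ zspanOn S {1}ᶜ := by
  obtain ⟨d, -, h1, h2⟩ := system_degree hS h
  exact mem_zspanOn.mpr ⟨zspan_sub (zspan_subset h) (zspan_subset (hS.conj_mem χ h)),
    by rw [Pi.sub_apply, h1, h2, sub_self]⟩

theorem system_diff_ne {χ : L → ℂ} (h : χ ∈ S) : χ - conjFun χ ≠ 0 :=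
  sub_ne_zero.mpr (hS.conj_ne χ h).symm

open scoped Classical in
theorem inner_sum_R {χ : L → ℂ} (h : χ ∈ S) {A : Finset (G → ℂ)} (hA : A ⊆ R χ)
    {B : Finset (G → ℂ)} (hB : B ⊆ R χ) :
    classInner (∑ α ∈ A, α) (∑ β ∈ B, β) =
      ((A ∩ B).card : ℂ) := by
  classical
  rw [classInner_sum_left, Finset.sum_congr rfl (fun α hα => by
    rw [classInner_sum_right, Finset.sum_congr rfl fun β hβ => hS.orthonormal χ h α (hA hα) β (hB hβ),
      Finset.sum_ite_eq])]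
  rw [Finset.sum_boole, Finset.filter_mem_eq_inter]

theorem card_R {χ : L → ℂ} (h : χ ∈ S) {N : ℕ} (hN : classInner χ χ = N) : (R χ).card = 2 * N := by
  classical
  have h1 := hS.isometry.2.2.1 _ (system_diff hS h) _ (system_diff hS h)
  obtain ⟨M, -, hM, hM', hM1, hM2⟩ := system_norm hS h
  rw [hS.sum_eq χ h, inner_sum_R hS h subset_rfl subset_rfl, classInner_sub_left,
    classInner_sub_right, classInner_sub_right, hM, hM', hM1, hM2] at h1
  rw [hM] at hN
  have hMN : M = N := by exact_mod_cast hN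
  rw [Finset.inter_self, hMN] at h1
  have h2 : ((R χ).card : ℂ) = ((2 * N : ℕ) : ℂ) := by rw [h1]; push_cast; ring
  exact_mod_cast h2

theorem R_inner_zero {χ φ : L → ℂ} (hχ : χ ∈ S) (hφ : φ ∈ S) (h1 : φ ≠ χ) (h2 : φ ≠ conjFun χ)
    {A B : Finset (G → ℂ)} (hA : A ⊆ R φ) (hB : B ⊆ R χ) :
    classInner (∑ α ∈ A, α) (∑ β ∈ B, β) = 0 := by
  rw [classInner_sum_left]
  refine Finset.sum_eq_zero fun α hα => ?_
  rw [classInner_sum_right]
  exact Finset.sum_eq_zero fun β hβ => hS.disjoint χ hχ φ hφ (hS.orthogonal φ hφ χ hχ h1)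
    (hS.orthogonal φ hφ _ (hS.conj_mem χ hχ) h2) α (hA hα) β (hB hβ)

/-- The image of a member of a coherent subset lies in the span of its `R`. -/
theorem coherent_image {S₁ : Set (L → ℂ)} (hS₁ : S₁ ⊆ S) (hS₁c : ∀ φ ∈ S₁, conjFun φ ∈ S₁)
    {T : (L → ℂ) → G → ℂ} (hT : IsLinearIsometryOn (zspan S₁) T)
    (hTτ : ∀ α ∈ zspanOn S₁ {1}ᶜ, T α = τ α) {φ : L → ℂ} (hφ : φ ∈ S₁) :
    ∃ A : Finset (G → ℂ), A ⊆ R φ ∧ T φ = ∑ α ∈ A, α := by
  classical
  obtain ⟨N, -, hN, hN', hN1, hN2⟩ := system_norm hS (hS₁ hφ)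
  have hm : φ - conjFun φ ∈ zspan S₁ := zspan_sub (zspan_subset hφ) (zspan_subset (hS₁c φ hφ))
  have hd : φ - conjFun φ ∈ zspanOn S₁ {1}ᶜ := by
    obtain ⟨d, -, h1, h2⟩ := system_degree hS (hS₁ hφ)
    exact mem_zspanOn.mpr ⟨hm, by rw [Pi.sub_apply, h1, h2, sub_self]⟩
  have hsum : classInner (T φ) (∑ α ∈ R φ, α) = N := by
    rw [← hS.sum_eq φ (hS₁ hφ), ← hTτ _ hd, hT.2.2.1 φ (zspan_subset hφ) _ hm,
      classInner_sub_right, hN, hN1, sub_zero]
  obtain ⟨c, hc, hge, hA⟩ := exists_proj (R φ) (hS.virtual φ (hS₁ hφ))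
    (hT.2.2.2 φ (zspan_subset hφ)) N hsum
  have hb := bessel (R φ) (fun α => α) c (fun _ => 1) (T φ) N
    (by rw [hT.2.2.1 φ (zspan_subset hφ) φ (zspan_subset hφ), hN, Complex.ofReal_natCast])
    (fun α hα β hβ hne => by rw [hS.orthonormal φ (hS₁ hφ) α hα β hβ, if_neg hne])
    (fun α hα => by rw [hS.orthonormal φ (hS₁ hφ) α hα α hα, if_pos rfl, Complex.ofReal_one])
    (fun α hα => by rw [hc α hα, Complex.ofReal_one, mul_one])
  simp only [mul_one] at hb
  obtain ⟨A, hAU, -, hA1, hA0⟩ := hA hb.1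
  refine ⟨A, hAU, ?_⟩
  rw [hb.2 (le_antisymm hb.1 hge),
    ← Finset.sum_subset hAU (fun α hα hn => by rw [hA0 α hα hn, Complex.ofReal_zero, zero_smul])]
  exact Finset.sum_congr rfl fun α hα => by rw [hA1 α hα, Complex.ofReal_one, one_smul]

end Cfsg.Agent.Lib.Dade
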