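import Cfsg.Agent.Lib.Char.Degree
import Cfsg.Agent.Lib.Char.Prod
import Cfsg.Agent.Lib.Transfer.Hall
import Mathlib.GroupTheory.SchurZassenhaus
import Mathlib.Tactic

/-!
Sums of squares of the small irreducible degrees of a nilpotent group.
-/

set_option autoImplicit false

namespace Cfsg.Agent.Lib.Dade

open Cfsg Cfsg.Agent.Lib.Char

universe u

variable (X : Type u) [Group X] [Fintype X]

/-- The sum of the squares of the irreducible degrees less than `m`. -/
noncomputable def degBelow (m : ℕ) : ℕ :=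
  ∑ χ ∈ Finset.univ.filter (fun χ : IrrCharacter X => charDegree (χ : X → ℂ) < m),
    charDegree (χ : X → ℂ) ^ 2

variable {X}

theorem linear_le_degBelow {m : ℕ} (hm : 1 < m) : (commutator X).index ≤ degBelow X m := by
  classical
  rw [← card_charDegree_one, Nat.card_eq_fintype_card, Fintype.card_subtype, degBelow,
    Finset.card_eq_sum_ones]
  refine le_trans (le_of_eq (Finset.sum_congr rfl fun χ hχ => ?_))
    (Finset.sum_le_sum_of_subset (f := fun χ : IrrCharacter X => charDegree (χ : X → ℂ) ^ 2)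
      fun χ hχ => ?_)
  · rw [(Finset.mem_filter.mp hχ).2, one_pow]
  · simp only [Finset.mem_filter, Finset.mem_univ, true_and] at hχ ⊢
    omega

/-- In a `p`-group the squares of the degrees below an irreducible degree `m` sum to at least `m²`. -/
theorem sq_le_degBelow {p : ℕ} [hp : Fact p.Prime] (hX : IsPGroup p X) (θ : IrrCharacter X)
    (hm : 1 < charDegree (θ : X → ℂ)) :
    charDegree (θ : X → ℂ) ^ 2 ≤ degBelow X (charDegree (θ : X → ℂ)) := by
  classical
  set m := charDegree (θ : X → ℂ) with hm'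
  obtain ⟨n, hn⟩ := IsPGroup.iff_card.mp hX
  have hpow : ∀ χ : IrrCharacter X, ∃ k, k ≤ n ∧ charDegree (χ : X → ℂ) = p ^ k := fun χ =>
    (Nat.dvd_prime_pow hp.out).mp (hn ▸ charDegree_dvd_card χ.2)
  obtain ⟨k, hkn, hk'⟩ := hpow θ
  have hk : m = p ^ k := hk'
  have hle : m ^ 2 ≤ Nat.card X := by
    rw [← sum_charDegree_sq]
    exact Finset.single_le_sum (f := fun χ : IrrCharacter X => charDegree (χ : X → ℂ) ^ 2)
      (fun _ _ => Nat.zero_le _) (Finset.mem_univ θ)
  have hdvd : m ^ 2 ∣ Nat.card X := by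
    rw [hn, hk, ← pow_mul] at hle
    rw [hn, hk, ← pow_mul]
    exact pow_dvd_pow p ((Nat.pow_le_pow_iff_right hp.out.one_lt).mp hle)
  have hsplit : degBelow X m +
      ∑ χ ∈ Finset.univ.filter (fun χ : IrrCharacter X => ¬ charDegree (χ : X → ℂ) < m),
        charDegree (χ : X → ℂ) ^ 2 = Nat.card X := by
    rw [degBelow, Finset.sum_filter_add_sum_filter_not, sum_charDegree_sq]
  have hbig : m ^ 2 ∣ ∑ χ ∈ Finset.univ.filter (fun χ : IrrCharacter X => ¬ charDegree (χ : X → ℂ) < m),
      charDegree (χ : X → ℂ) ^ 2 := by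
    refine Finset.dvd_sum fun χ hχ => pow_dvd_pow_of_dvd ?_ 2
    obtain ⟨j, -, hj⟩ := hpow χ
    have h := (Finset.mem_filter.mp hχ).2
    rw [not_lt, hj, hk] at h
    rw [hj, hk]
    exact pow_dvd_pow p ((Nat.pow_le_pow_iff_right hp.out.one_lt).mp h)
  refine Nat.le_of_dvd ?_ ((Nat.dvd_add_left hbig).mp (hsplit ▸ hdvd))
  exact lt_of_lt_of_le (Nat.pos_of_ne_zero (commutator X).index_ne_zero_of_finite)
    (linear_le_degBelow hm)

/-- The bound for a product of a `p`-group with a `p'`-group. -/
theorem degBelow_prod {A B : Type u} [Group A] [Fintype A] [Group B] [Fintype B] (f : A × B ≃* X)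
    {p : ℕ} [hp : Fact p.Prime] (hA : IsPGroup p A) (hB : (Nat.card B).Coprime p) {e : ℕ}
    (hAe : e + 1 ≤ (commutator A).index) (hBe : e + 1 ≤ (commutator B).index)
    (θ : IrrCharacter X) (hθ : p ∣ charDegree (θ : X → ℂ)) :
    2 * e * charDegree (θ : X → ℂ) + 1 < degBelow X (charDegree (θ : X → ℂ)) := by
  classical
  obtain ⟨α, β, hα, hβ, hαβ⟩ := exists_prod_eq
    (isIrrCharacter_comp θ.2 f.toMonoidHom f.surjective)
  have hdeg : charDegree (θ : X → ℂ) = charDegree α * charDegree β := by
    refine charDegree_eq_of_apply_one ?_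
    have h := congrFun hαβ 1
    simp only [Function.comp_apply, map_one, Prod.fst_one, Prod.snd_one] at h
    rw [h, apply_one_eq_charDegree (isCharacter_of_isIrr hα),
      apply_one_eq_charDegree (isCharacter_of_isIrr hβ), Nat.cast_mul]
  set d := charDegree α with hd
  set m := charDegree β with hm
  have hpm : p.Coprime m :=
    Nat.Coprime.coprime_dvd_right (charDegree_dvd_card hβ) hB.symm
  have hpd : p ∣ d := hpm.dvd_of_dvd_mul_right (hdeg ▸ hθ)
  have hm1 : 1 ≤ m := charDegree_pos hβ
  have hd2 : 2 ≤ d := le_trans hp.out.two_le (Nat.le_of_dvd (charDegree_pos hα) hpd)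
  set U := Finset.univ.filter (fun χ : IrrCharacter B => charDegree (χ : B → ℂ) ≤ m) with hU
  set T := ∑ χ ∈ U, charDegree (χ : B → ℂ) ^ 2 with hT
  have hlinB : (commutator B).index = ∑ χ ∈ Finset.univ.filter
      (fun χ : IrrCharacter B => charDegree (χ : B → ℂ) = 1), charDegree (χ : B → ℂ) ^ 2 := by
    rw [← card_charDegree_one, Nat.card_eq_fintype_card, Fintype.card_subtype, Finset.card_eq_sum_ones]
    exact Finset.sum_congr rfl fun χ hχ => by rw [(Finset.mem_filter.mp hχ).2, one_pow]
  have hT1 : e + 1 ≤ T := hBe.trans (hlinB ▸ Finset.sum_le_sum_of_subset fun χ hχ => by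
    simp only [hU, Finset.mem_filter, Finset.mem_univ, true_and] at hχ ⊢
    omega)
  have hT2 : 2 ≤ m → e + 1 + m ^ 2 ≤ T := by
    intro hm2
    have hnot : (⟨β, hβ⟩ : IrrCharacter B) ∉ Finset.univ.filter
        (fun χ : IrrCharacter B => charDegree (χ : B → ℂ) = 1) := by
      intro h
      have h2 : m = 1 := (Finset.mem_filter.mp h).2
      omega
    have h := Finset.sum_le_sum_of_subset (f := fun χ : IrrCharacter B => charDegree (χ : B → ℂ) ^ 2)
      (show insert (⟨β, hβ⟩ : IrrCharacter B) (Finset.univ.filter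
        (fun χ : IrrCharacter B => charDegree (χ : B → ℂ) = 1)) ⊆ U from fun χ hχ => by
          rw [hU, Finset.mem_filter]
          refine ⟨Finset.mem_univ _, ?_⟩
          rcases Finset.mem_insert.mp hχ with rfl | h
          · exact le_rfl
          · have := (Finset.mem_filter.mp h).2
            omega)
    rw [Finset.sum_insert hnot, ← hlinB] at h
    show e + 1 + m ^ 2 ≤ T
    have h' : m ^ 2 + (commutator B).index ≤ T := h
    omega
  set S := degBelow A d with hS
  have hS1 : e + 1 ≤ S := hAe.trans (linear_le_degBelow (by omega))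
  have hS2 : d ^ 2 ≤ S := sq_le_degBelow hA ⟨α, hα⟩ (by show 1 < d; omega)
  have hST : S * T ≤ degBelow X (charDegree (θ : X → ℂ)) := by
    rw [hS, hT, degBelow, degBelow, Finset.sum_mul_sum, ← Finset.sum_product']
    let g : IrrCharacter A × IrrCharacter B → IrrCharacter X := fun q =>
      ⟨_, isIrrCharacter_comp (isIrrCharacter_prod q.1.2 q.2.2) f.symm.toMonoidHom f.symm.surjective⟩
    have hginj : Function.Injective g := by
      intro q r hqr
      have h : (fun x : A × B => (q.1 : A → ℂ) x.1 * (q.2 : B → ℂ) x.2) =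
          fun x => (r.1 : A → ℂ) x.1 * (r.2 : B → ℂ) x.2 := by
        funext x
        have := congrFun (congrArg Subtype.val hqr) (f x)
        simpa [g] using this
      have h2 : classInner (fun x : A × B => (q.1 : A → ℂ) x.1 * (q.2 : B → ℂ) x.2)
          (fun x => (r.1 : A → ℂ) x.1 * (r.2 : B → ℂ) x.2) = 1 := by
        rw [h, classInner_prod, classInner_irr_self r.1.2, classInner_irr_self r.2.2, one_mul]
      rw [classInner_prod, classInner_irrCharacter, classInner_irrCharacter] at h2
      split_ifs at h2 with e1 e2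
      · exact Prod.ext e1 e2
      all_goals norm_num at h2
    have hgdeg : ∀ q, charDegree (g q : X → ℂ) =
        charDegree (q.1 : A → ℂ) * charDegree (q.2 : B → ℂ) := fun q => by
      refine charDegree_eq_of_apply_one ?_
      show ((fun x : A × B => (q.1 : A → ℂ) x.1 * (q.2 : B → ℂ) x.2) ∘ f.symm.toMonoidHom) 1 = _
      simp [apply_one_eq_charDegree (isCharacter_of_isIrr q.1.2),
        apply_one_eq_charDegree (isCharacter_of_isIrr q.2.2)]
    refine le_trans (le_of_eq ?_) (Finset.sum_le_sum_of_subset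
      (s := ((Finset.univ.filter fun χ : IrrCharacter A => charDegree (χ : A → ℂ) < d) ×ˢ U).image g)
      (fun χ hχ => ?_))
    · rw [Finset.sum_image fun a _ b _ h => hginj h]
      exact Finset.sum_congr rfl fun q _ => by rw [hgdeg, mul_pow]
    · obtain ⟨q, hq, rfl⟩ := Finset.mem_image.mp hχ
      obtain ⟨h1, h2⟩ := Finset.mem_product.mp hq
      refine Finset.mem_filter.mpr ⟨Finset.mem_univ _, ?_⟩
      rw [hgdeg, hdeg]
      exact Nat.mul_lt_mul_of_lt_of_le (Finset.mem_filter.mp h1).2 (Finset.mem_filter.mp h2).2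
        (by omega)
  refine lt_of_lt_of_le ?_ hST
  rw [hdeg]
  rcases Nat.lt_or_ge m 2 with h | h
  · have hmone : m = 1 := by omega
    rw [hmone]
    calc 2 * e * (d * 1) + 1 < 2 * d * (e + 1) := by nlinarith
      _ ≤ d ^ 2 * (e + 1) := Nat.mul_le_mul_right _ (by nlinarith)
      _ ≤ S * T := Nat.mul_le_mul hS2 hT1
  · have hT' := hT2 h
    have h1 : d ^ 2 * (e + 1) ≤ S ^ 2 := by rw [sq S]; exact Nat.mul_le_mul hS2 hS1
    have h2 : 4 * m ^ 2 * (e + 1) ≤ T ^ 2 := by
      have h3 : (e + 1 + m ^ 2) ^ 2 ≤ T ^ 2 := Nat.pow_le_pow_left hT' 2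
      nlinarith [two_mul_le_add_sq (e + 1) (m ^ 2)]
    have h3 : (2 * d * m * (e + 1)) ^ 2 ≤ (S * T) ^ 2 := by
      rw [mul_pow S T]
      calc (2 * d * m * (e + 1)) ^ 2 = d ^ 2 * (e + 1) * (4 * m ^ 2 * (e + 1)) := by ring
        _ ≤ _ := Nat.mul_le_mul h1 h2
    have h4 := (Nat.pow_le_pow_iff_left two_ne_zero).mp h3
    nlinarith

/-- A nilpotent group that is not a `q`-group splits off its Sylow subgroup for `q`. -/
theorem exists_prod_decomp [Group.IsNilpotent X] (p : ℕ) [hp : Fact p.Prime] :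
    ∃ (P K : Subgroup X) (f : P × K ≃* X), IsPGroup p P ∧ (Nat.card K).Coprime p ∧
      (∀ x : P × K, f x = (x.1 : X) * x.2) ∧ ¬ p ∣ P.index ∧ Nat.card K = P.index := by
  let P : Sylow p X := default
  have hn : (P : Subgroup X).Normal :=
    ((Group.isNilpotent_of_finite_tfae (G := X)).out 0 3 rfl rfl).mp inferInstance p hp P
  obtain ⟨K, hK⟩ := Subgroup.exists_right_complement'_of_coprime P.card_coprime_index
  have hKcard : Nat.card K = (P : Subgroup X).index := hK.symm.index_eq_card.symm
  have hKp : (Nat.card K).Coprime p := by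
    rw [hKcard]
    exact ((Nat.Prime.coprime_iff_not_dvd hp.out).mpr P.not_dvd_index).symm
  have hcomm : ∀ (a : ↥(P : Subgroup X)) (b : K), (a : X) * b = b * a := fun a b => by
    obtain ⟨n, hn'⟩ := IsPGroup.iff_orderOf.mp P.2 a
    refine (Lib.Transfer.commute_of_coprime_orderOf ?_).eq
    rw [Subgroup.orderOf_coe, hn', Subgroup.orderOf_coe]
    exact Nat.Coprime.pow_left _ ((hKp.coprime_dvd_left (orderOf_dvd_natCard b)).symm)
  let h : ↥(P : Subgroup X) × K →* X :=
    { toFun := fun x => (x.1 : X) * x.2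
      map_one' := by simp
      map_mul' := fun x y => by
        simp only [Prod.fst_mul, Prod.snd_mul, Subgroup.coe_mul]
        rw [mul_assoc, mul_assoc, ← mul_assoc (y.1 : X), hcomm y.1 x.2]
        group }
  exact ⟨P, K, MulEquiv.ofBijective h hK, P.2, hKp, fun _ => rfl, P.not_dvd_index, hKcard⟩

end Cfsg.Agent.Lib.Dade
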