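import Cfsg.Agent.Lib.Dade.CoherenceExt
import Cfsg.Agent.Lib.CharClifford.NormOne
import Mathlib.Tactic

/-!
Feit's criterion for the coherence of a set of irreducible characters, with no hypothesis about
complex conjugation.
-/

set_option autoImplicit false

open scoped ComplexConjugate

namespace Cfsg.Agent.Lib.Dade

open Cfsg Cfsg.Agent.Lib.Char

universe u v

variable {L : Type u} [Group L] [Fintype L] {G : Type v} [Group G] [Fintype G]

/-- A coherent assignment on the finite set `X`, based at `χ₁`; `d` is the degree in units of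
`χ₁ 1`. -/
structure FeitBase (τ : (L → ℂ) → G → ℂ) (d : (L → ℂ) → ℕ) (χ₁ : L → ℂ) (X : Finset (L → ℂ))
    (u : (L → ℂ) → G → ℂ) : Prop where
  mem : χ₁ ∈ X
  gen : ∀ x ∈ X, IsGeneralizedCharacter G (u x)
  orth : ∀ x ∈ X, ∀ y ∈ X, classInner (u x) (u y) = classInner x y
  eq : ∀ x ∈ X, τ (x - d x • χ₁) = u x - d x • u χ₁

variable {τ : (L → ℂ) → G → ℂ} {d : (L → ℂ) → ℕ} {χ₁ : L → ℂ}

theorem diff_mem_zspanOn {S : Set (L → ℂ)} (hd : ∀ x ∈ S, x 1 = d x * χ₁ 1) {x : L → ℂ}
    (hx : x ∈ S) (h1 : χ₁ ∈ S) : x - d x • χ₁ ∈ zspanOn S {1}ᶜ := by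
  refine mem_zspanOn.mpr ⟨zspan_sub (zspan_subset hx) ?_, ?_⟩
  · rw [← natCast_zsmul]
    exact zspan_smul _ (zspan_subset h1)
  · rw [Pi.sub_apply, Pi.smul_apply, hd x hx, nsmul_eq_mul, sub_self]

/-- Feit's step: one more character. -/
theorem feit_step {S : Set (L → ℂ)} (hirr : ∀ x ∈ S, IsIrrCharacter L x)
    (hτ : IsLinearIsometryOn (zspanOn S {1}ᶜ) τ) (hτ1 : ∀ α ∈ zspanOn S {1}ᶜ, τ α 1 = 0)
    (hd : ∀ x ∈ S, x 1 = d x * χ₁ 1) (hd1 : d χ₁ = 1)
    {X : Finset (L → ℂ)} {u : (L → ℂ) → G → ℂ} (hX : ∀ x ∈ X, x ∈ S)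
    (hu : FeitBase τ d χ₁ X u) {χ : L → ℂ} (hχ : χ ∈ S) (hχX : χ ∉ X)
    (hlt : 2 * d χ < ∑ x ∈ X, d x ^ 2) :
    ∃ u', FeitBase τ d χ₁ (insert χ X) u' := by
  classical
  set m := d χ with hm
  set φ := χ - m • χ₁ with hφ
  have h1S : χ₁ ∈ S := hX _ hu.mem
  have hφmem : φ ∈ zspanOn S {1}ᶜ := diff_mem_zspanOn hd hχ h1S
  have hI : ∀ a ∈ S, ∀ b ∈ S, classInner a b = if a = b then 1 else 0 := fun a ha b hb => by
    split_ifs with h
    · rw [h, classInner_irr_self (hirr b hb)]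
    · exact classInner_irr_ne (hirr a ha) (hirr b hb) h
  have hχ1 : χ ≠ χ₁ := fun h => hχX (h ▸ hu.mem)
  have hgen := hτ.2.2.2 φ hφmem
  have hu11 : classInner (u χ₁) (u χ₁) = 1 := by rw [hu.orth _ hu.mem _ hu.mem, hI _ h1S _ h1S, if_pos rfl]
  obtain ⟨c, hc⟩ := classInner_int hgen (hu.gen _ hu.mem)
  have hns : ∀ (n : ℕ) (ψ : L → ℂ) (y : L → ℂ), classInner y (n • ψ) = (n : ℂ) * classInner y ψ :=
    fun n ψ y => by rw [← natCast_zsmul, classInner_zsmul_right, Int.cast_natCast]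
  have hns' : ∀ (n : ℕ) (ψ : L → ℂ) (y : L → ℂ), classInner (n • ψ) y = (n : ℂ) * classInner ψ y :=
    fun n ψ y => by rw [← natCast_zsmul, classInner_zsmul_left, Int.cast_natCast]
  have hnsG : ∀ (n : ℕ) (ψ : G → ℂ) (y : G → ℂ), classInner y (n • ψ) = (n : ℂ) * classInner y ψ :=
    fun n ψ y => by rw [← natCast_zsmul, classInner_zsmul_right, Int.cast_natCast]
  set a : ℤ := c + m with ha
  -- the coefficients of `τ φ` on the members of `X`
  have hcoef : ∀ x ∈ X, classInner (τ φ) (u x) =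
      (((d x : ℤ) * a - if x = χ₁ then (m : ℤ) else 0 : ℤ) : ℂ) := by
    intro x hx
    by_cases hx1 : x = χ₁
    · subst hx1
      rw [if_pos rfl, hd1, hc, ha]; push_cast; ring
    · have h := hτ.2.2.1 φ hφmem _ (diff_mem_zspanOn hd (hX x hx) h1S)
      rw [hu.eq x hx, classInner_sub_right, hnsG, hc, hφ, classInner_sub_left, classInner_sub_right,
        classInner_sub_right, hns', hns', hns, hns, hI _ hχ _ (hX x hx), hI _ hχ _ h1S,
        hI _ h1S _ (hX x hx), hI _ h1S _ h1S, if_neg (fun h => hχX (by rw [h]; exact hx)), if_neg hχ1,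
        if_neg (Ne.symm hx1), if_pos rfl] at h
      rw [if_neg hx1, ha, hφ]
      push_cast
      linear_combination h
  set co : (L → ℂ) → ℤ := fun x => (d x : ℤ) * a - if x = χ₁ then (m : ℤ) else 0 with hco
  set Δ := τ φ - ∑ x ∈ X, (co x : ℂ) • u x with hΔ
  have horth : ∀ x ∈ X, ∀ y ∈ X, x ≠ y → classInner (u x) (u y) = 0 := fun x hx y hy h => by
    rw [hu.orth x hx y hy, hI _ (hX x hx) _ (hX y hy), if_neg h]
  have hone : ∀ x ∈ X, classInner (u x) (u x) = 1 := fun x hx => by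
    rw [hu.orth x hx x hx, hI _ (hX x hx) _ (hX x hx), if_pos rfl]
  have hφφ : classInner (τ φ) (τ φ) = (((m : ℤ) ^ 2 + 1 : ℤ) : ℂ) := by
    rw [hτ.2.2.1 φ hφmem φ hφmem, hφ, classInner_sub_left, classInner_sub_right,
      classInner_sub_right, hns', hns', hns, hns, hI _ hχ _ hχ, hI _ hχ _ h1S, hI _ h1S _ hχ,
      hI _ h1S _ h1S, if_pos rfl, if_neg hχ1, if_neg (Ne.symm hχ1), if_pos rfl]
    push_cast; ring
  set Q : ℤ := ∑ x ∈ X, (d x : ℤ) ^ 2 with hQ
  have hco2 : ∑ x ∈ X, co x ^ 2 = a ^ 2 * Q - 2 * a * m + (m : ℤ) ^ 2 := by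
    rw [hQ, Finset.mul_sum, ← Finset.add_sum_erase _ _ hu.mem,
      ← Finset.add_sum_erase _ (fun x => a ^ 2 * (d x : ℤ) ^ 2) hu.mem,
      Finset.sum_congr rfl (g := fun x => a ^ 2 * (d x : ℤ) ^ 2) fun x hx => by
        simp only [co, if_neg (Finset.mem_erase.mp hx).1]; ring]
    simp only [co, if_pos rfl, hd1]
    push_cast
    ring
  have hΔn : classInner Δ Δ = ((1 + 2 * a * m - a ^ 2 * Q : ℤ) : ℂ) := by
    rw [hΔ, classInner_remainder X u (fun x => (co x : ℂ)) (τ φ) horth fun x hx => by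
      rw [hcoef x hx, hone x hx, mul_one], hφφ]
    rw [Finset.sum_congr rfl (g := fun x => ((co x ^ 2 : ℤ) : ℂ)) fun x hx => by
      rw [hone x hx, map_intCast]; push_cast; ring, ← Int.cast_sum, hco2]
    push_cast; ring
  have hΔorth : ∀ x ∈ X, classInner Δ (u x) = 0 := by
    intro x hx
    rw [hΔ, classInner_sub_left, classInner_sum_left, Finset.sum_eq_single x
      (fun y hy hyx => by rw [classInner_smul_left, horth y hy x hx hyx, mul_zero])
      (fun h => absurd hx h), classInner_smul_left, hone x hx, mul_one, hcoef x hx, sub_self]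
  have hQlt : 2 * (m : ℤ) < Q := by rw [hQ]; exact_mod_cast hlt
  have hpos : 0 ≤ 1 + 2 * a * (m : ℤ) - a ^ 2 * Q := by
    have := classInner_self_re_nonneg Δ
    rw [hΔn, Complex.intCast_re] at this
    exact_mod_cast this
  have hu1 : u χ₁ 1 ≠ 0 := by
    rcases CharClifford.irr_or_neg_of_norm_one (hu.gen _ hu.mem) hu11 with h | h
    · exact irr_degree_ne_zero h
    · intro h0
      exact irr_degree_ne_zero h (by rw [Pi.neg_apply, h0, neg_zero])
  have hux1 : ∀ x ∈ X, u x 1 = (d x : ℂ) * u χ₁ 1 := fun x hx => by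
    have h := hτ1 _ (diff_mem_zspanOn hd (hX x hx) h1S)
    rw [hu.eq x hx, Pi.sub_apply, Pi.smul_apply, nsmul_eq_mul, sub_eq_zero] at h
    exact h
  have ha0 : a = 0 := by
    by_contra hne
    have hm0 : (0 : ℤ) ≤ m := Int.natCast_nonneg m
    have hge : 1 ≤ a ^ 2 * Q - 2 * a * m := by
      rcases lt_or_gt_of_ne hne with h | h
      · have h1 : (1 : ℤ) ≤ a ^ 2 * Q := by nlinarith
        nlinarith
      · have h1 : Q ≤ a * Q := le_mul_of_one_le_left (by linarith) h
        nlinarith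
    have hz : 1 + 2 * a * (m : ℤ) - a ^ 2 * Q = 0 := by linarith
    rw [hz, Int.cast_zero] at hΔn
    have hΔ0 := eq_zero_of_classInner_self Δ hΔn
    rw [hΔ, sub_eq_zero] at hΔ0
    have h2 : (((a * Q - m : ℤ)) : ℂ) * u χ₁ 1 = 0 := by
      have h3 := congrFun hΔ0 1
      rw [hτ1 φ hφmem, Finset.sum_apply,
        Finset.sum_congr rfl (g := fun x => ((co x * d x : ℤ) : ℂ) * u χ₁ 1) fun x hx => by
          rw [Pi.smul_apply, smul_eq_mul, hux1 x hx]; push_cast; ring,
        ← Finset.sum_mul, ← Int.cast_sum] at h3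
      rw [h3]
      congr 2
      rw [hQ, Finset.mul_sum, ← Finset.add_sum_erase _ _ hu.mem,
        ← Finset.add_sum_erase _ (fun x => co x * (d x : ℤ)) hu.mem,
        Finset.sum_congr rfl (g := fun x => co x * (d x : ℤ)) fun x hx => by
          simp only [co, if_neg (Finset.mem_erase.mp hx).1]; ring]
      simp only [co, if_pos rfl, hd1]
      push_cast
      ring
    have h4 : a * Q - m = 0 := by exact_mod_cast (mul_eq_zero.mp h2).resolve_right hu1
    rcases lt_or_gt_of_ne hne with h | h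
    · nlinarith
    · nlinarith
  refine ⟨fun x => if x = χ then Δ else u x, ?_⟩
  have hold : ∀ x ∈ X, (if x = χ then Δ else u x) = u x := fun x hx =>
    if_neg fun h => hχX (by rw [← h]; exact hx)
  have hΔgen : IsGeneralizedCharacter G Δ := by
    refine generalized_sub hgen (generalized_sum _ _ fun x hx => ?_)
    rw [Int.cast_smul_eq_zsmul]
    exact generalized_zsmul (hu.gen x hx) _
  have hΔ1 : classInner Δ Δ = 1 := by rw [hΔn, ha0]; simp
  refine ⟨Finset.mem_insert_of_mem hu.mem, fun x hx => ?_, fun x hx y hy => ?_, fun x hx => ?_⟩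
  · show IsGeneralizedCharacter G (if x = χ then Δ else u x)
    rcases Finset.mem_insert.mp hx with e | hx
    · rw [if_pos e]; exact hΔgen
    · rw [hold x hx]; exact hu.gen x hx
  · show classInner (if x = χ then Δ else u x) (if y = χ then Δ else u y) = classInner x y
    rcases Finset.mem_insert.mp hx with e | hx <;> rcases Finset.mem_insert.mp hy with e' | hy
    · rw [if_pos e, if_pos e', hΔ1, e, e', hI _ hχ _ hχ, if_pos rfl]
    · rw [if_pos e, hold y hy, hΔorth y hy, e, hI _ hχ _ (hX y hy),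
        if_neg fun h => hχX (by rw [h]; exact hy)]
    · rw [if_pos e', hold x hx, classInner_conj_symm, hΔorth x hx, map_zero, e', hI _ (hX x hx) _ hχ,
        if_neg fun h => hχX (by rw [← h]; exact hx)]
    · rw [hold x hx, hold y hy]; exact hu.orth x hx y hy
  · show τ (x - d x • χ₁) =
      (if x = χ then Δ else u x) - d x • (if χ₁ = χ then Δ else u χ₁)
    rw [hold χ₁ hu.mem]
    rcases Finset.mem_insert.mp hx with e | hx
    · rw [if_pos e, e, hΔ, Finset.sum_eq_single χ₁ (fun y _ hy => by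
        simp only [co, ha0, if_neg hy]; simp) (fun h => absurd hu.mem h)]
      simp only [co, ha0, hd1, if_pos rfl]
      funext g
      simp [hφ, hm]
    · rw [hold x hx]; exact hu.eq x hx

/-- A based assignment on the whole of a set makes it coherent. -/
theorem coherent_of_feitBase (S : Finset (L → ℂ)) (hirr : ∀ x ∈ S, IsIrrCharacter L x)
    (hτ : IsLinearIsometryOn (zspanOn (S : Set (L → ℂ)) {1}ᶜ) τ)
    (hd : ∀ x ∈ S, x 1 = d x * χ₁ 1) (htwo : ∃ x ∈ S, x ≠ χ₁)
    {u : (L → ℂ) → G → ℂ} (hu : FeitBase τ d χ₁ S u) :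
    IsCoherent (S : Set (L → ℂ)) {1}ᶜ τ := by
  classical
  have hdS : ∀ x ∈ (S : Set (L → ℂ)), x 1 = d x * χ₁ 1 := fun x hx => hd x hx
  have h1 : χ₁ ∈ S := hu.mem
  have hmem1 : χ₁ ∈ (S : Set (L → ℂ)) := h1
  have hI : ∀ a ∈ S, ∀ b ∈ S, classInner a b = if a = b then 1 else 0 := fun a ha b hb => by
    split_ifs with h
    · rw [h, classInner_irr_self (hirr b hb)]
    · exact classInner_irr_ne (hirr a ha) (hirr b hb) h
  obtain ⟨T, hT, hTiso⟩ := exists_isometry S u
    (fun x hx y hy h => by rw [hI x hx y hy, if_neg h])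
    (fun x hx h => irr_degree_ne_zero (hirr x hx) (by rw [h]; rfl)) hu.gen
    (fun x hx y hy => hu.orth x hx y hy)
  obtain ⟨x, hx, hx1⟩ := htwo
  refine ⟨⟨x - d x • χ₁, diff_mem_zspanOn hdS hx hmem1, fun h => ?_⟩, T, hTiso, fun α hα => ?_⟩
  · have := congrArg (fun f => classInner f x) h
    simp only [classInner_sub_left, classInner_zero_left, ← natCast_zsmul, classInner_zsmul_left,
      hI x hx x hx, hI χ₁ h1 x hx, if_pos, if_neg (Ne.symm hx1)] at this
    simp at this
  · have hT0 : T 0 = 0 := by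
      have := hTiso.2.1 0 (Submodule.zero_mem _) 0
      simpa using this
    have hτ0 : τ 0 = 0 := by
      have := hτ.2.1 _ (diff_mem_zspanOn hdS hmem1 hmem1) 0
      simpa using this
    have h1z : χ₁ ∈ zspan (S : Set (L → ℂ)) := zspan_subset hmem1
    -- both maps agree on the part of degree zero of an integer combination
    have key : ∀ β ∈ zspan (S : Set (L → ℂ)), ∃ k : ℤ, β 1 = k * χ₁ 1 ∧
        β - k • χ₁ ∈ zspanOn (S : Set (L → ℂ)) {1}ᶜ ∧ τ (β - k • χ₁) = T β - k • T χ₁ := by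
      intro β hβ
      induction hβ using Submodule.span_induction with
      | mem y hy =>
        refine ⟨d y, by rw [hdS y hy]; simp, ?_, ?_⟩
        · rw [natCast_zsmul]; exact diff_mem_zspanOn hdS hy hmem1
        · rw [natCast_zsmul, natCast_zsmul, hu.eq y hy, hT y hy, hT χ₁ h1]
      | zero =>
        refine ⟨0, by simp, ?_, by simp [hT0, hτ0]⟩
        rw [zero_smul, sub_zero]
        exact mem_zspanOn.mpr ⟨Submodule.zero_mem _, rfl⟩
      | add y z hy hz ihy ihz =>
        obtain ⟨k, k1, k2, k3⟩ := ihy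
        obtain ⟨l, l1, l2, l3⟩ := ihz
        have e : y + z - (k + l) • χ₁ = (y - k • χ₁) + (z - l • χ₁) := by rw [add_smul]; abel
        refine ⟨k + l, by rw [Pi.add_apply, k1, l1]; push_cast; ring, ?_, ?_⟩
        · rw [e]
          refine mem_zspanOn.mpr ⟨zspan_add (mem_zspanOn.mp k2).1 (mem_zspanOn.mp l2).1, ?_⟩
          rw [Pi.add_apply, (mem_zspanOn.mp k2).2, (mem_zspanOn.mp l2).2, add_zero]
        · rw [e, hτ.1 _ k2 _ l2, k3, l3, hTiso.1 y hy z hz, add_smul]
          abel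
      | smul n y hy ihy =>
        obtain ⟨k, k1, k2, k3⟩ := ihy
        have e : n • y - (n * k) • χ₁ = n • (y - k • χ₁) := by rw [smul_sub, mul_smul]
        refine ⟨n * k, by rw [Pi.smul_apply, k1, zsmul_eq_mul]; push_cast; ring, ?_, ?_⟩
        · rw [e]
          refine mem_zspanOn.mpr ⟨zspan_smul _ (mem_zspanOn.mp k2).1, ?_⟩
          rw [Pi.smul_apply, (mem_zspanOn.mp k2).2, smul_zero]
        · rw [e, hτ.2.1 _ k2 n, k3, hTiso.2.1 y hy n, smul_sub, mul_smul]
    obtain ⟨hαz, hα1⟩ := mem_zspanOn.mp hα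
    obtain ⟨k, k1, -, k3⟩ := key α hαz
    have hk : k = 0 := by
      rw [hα1] at k1
      exact_mod_cast (mul_eq_zero.mp k1.symm).resolve_right (irr_degree_ne_zero (hirr χ₁ h1))
    rw [hk, zero_smul, zero_smul, sub_zero, sub_zero] at k3
    exact k3.symm

/-- Coherence of a set ordered by degree. -/
theorem coherent_of_feit (S : Finset (L → ℂ)) (hirr : ∀ x ∈ S, IsIrrCharacter L x)
    (hτ : IsLinearIsometryOn (zspanOn (S : Set (L → ℂ)) {1}ᶜ) τ)
    (hτ1 : ∀ α ∈ zspanOn (S : Set (L → ℂ)) {1}ᶜ, τ α 1 = 0)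
    (hd : ∀ x ∈ S, x 1 = d x * χ₁ 1) (hd1 : d χ₁ = 1) (h1 : χ₁ ∈ S)
    (htwo : ∃ x ∈ S, x ≠ χ₁)
    (hbase : ∀ x ∈ S, d x ≠ 1 → 2 * d x < ∑ y ∈ S.filter (fun y => d y < d x), d y ^ 2) :
    IsCoherent (S : Set (L → ℂ)) {1}ᶜ τ := by
  classical
  have hdS : ∀ x ∈ (S : Set (L → ℂ)), x 1 = d x * χ₁ 1 := fun x hx => hd x hx
  have hmem1 : χ₁ ∈ (S : Set (L → ℂ)) := h1
  have hI : ∀ a ∈ S, ∀ b ∈ S, classInner a b = if a = b then 1 else 0 := fun a ha b hb => by
    split_ifs with h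
    · rw [h, classInner_irr_self (hirr b hb)]
    · exact classInner_irr_ne (hirr a ha) (hirr b hb) h
  -- the characters of smallest degree
  set X₀ := S.filter (fun x => d x = 1) with hX₀
  have h10 : χ₁ ∈ X₀ := Finset.mem_filter.mpr ⟨h1, hd1⟩
  have hbase0 : ∃ u, FeitBase τ d χ₁ X₀ u := by
    let i₀ : X₀ := ⟨χ₁, h10⟩
    have hm : ∀ i : X₀, (i : L → ℂ) ∈ (S : Set (L → ℂ)) := fun i => (Finset.mem_filter.mp i.2).1
    have hd' : ∀ i : X₀, d i = 1 := fun i => (Finset.mem_filter.mp i.2).2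
    have hE : ∀ i : X₀, (i : L → ℂ) - χ₁ ∈ zspanOn (S : Set (L → ℂ)) {1}ᶜ := fun i => by
      have := diff_mem_zspanOn hdS (hm i) hmem1
      rwa [hd' i, one_smul] at this
    have h0 : τ 0 = 0 := by
      have := hτ.2.1 _ (hE i₀) 0
      simpa using this
    obtain ⟨ε, hε, μ, hμ, hμeq⟩ := exists_coherent_family i₀ (fun i => τ ((i : L → ℂ) - χ₁))
      (by simp [i₀, h0]) (fun i => hτ.2.2.2 _ (hE i)) (fun i => hτ1 _ (hE i)) fun i j hi hj => by
        have hne : ∀ k : X₀, k ≠ i₀ → ((k : L → ℂ) ≠ χ₁) := fun k hk h => hk (Subtype.ext h)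
        rw [hτ.2.2.1 _ (hE i) _ (hE j), classInner_sub_left, classInner_sub_right,
          classInner_sub_right, hI _ (hm i) _ (hm j), hI _ (hm i) _ h1, hI _ h1 _ (hm j),
          hI _ h1 _ h1, if_neg (hne i hi), if_neg (hne j hj).symm, if_pos rfl]
        refine ⟨fun h => ?_, fun h => ?_⟩
        · rw [h, if_pos rfl]; norm_num
        · rw [if_neg fun h' => h (Subtype.ext h')]; norm_num
    refine ⟨fun x => if h : x ∈ X₀ then ε • (μ ⟨x, h⟩ : G → ℂ) else 0, h10, fun x hx => ?_,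
      fun x hx y hy => ?_, fun x hx => ?_⟩
    · simp only [dif_pos hx]
      rcases hε with rfl | rfl
      · rw [one_smul]; exact generalized_of_isCharacter (isCharacter_of_isIrr (μ _).2)
      · rw [neg_one_smul]
        exact generalized_neg (generalized_of_isCharacter (isCharacter_of_isIrr (μ _).2))
    · have hεε : ε * conj ε = 1 := by rcases hε with rfl | rfl <;> simp
      simp only [dif_pos hx, dif_pos hy]
      rw [classInner_smul_left, classInner_smul_right, ← mul_assoc, hεε, one_mul,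
        classInner_irrCharacter, hI _ (hm ⟨x, hx⟩) _ (hm ⟨y, hy⟩)]
      by_cases h : x = y
      · subst h; rw [if_pos rfl, if_pos rfl]
      · rw [if_neg h, if_neg (hμ.ne fun h' => h (congrArg Subtype.val h'))]
    · simp only [dif_pos hx, dif_pos h10, hd' ⟨x, hx⟩, one_smul]
      rw [show x - χ₁ = ((⟨x, hx⟩ : X₀) : L → ℂ) - χ₁ from rfl]
      exact (hμeq ⟨x, hx⟩).trans (smul_sub _ _ _)
  -- adjoin the others in the order of their degrees
  have grow : ∀ n, ∀ X : Finset (L → ℂ), (S \ X).card = n → X ⊆ S → X₀ ⊆ X →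
      (∀ x ∈ X, ∀ y ∈ S, d y < d x → y ∈ X) → (∃ u, FeitBase τ d χ₁ X u) →
      ∃ u, FeitBase τ d χ₁ S u := by
    intro n
    induction n with
    | zero =>
      intro X hn hXS _ _ hu
      rwa [Finset.Subset.antisymm hXS (Finset.sdiff_eq_empty_iff_subset.mp (Finset.card_eq_zero.mp hn))] at hu
    | succ n ih =>
      intro X hn hXS h0X hclosed hu
      obtain ⟨χ, hχ, hmin⟩ := Finset.exists_min_image (S \ X) d (Finset.card_pos.mp (by omega))
      obtain ⟨hχS, hχX⟩ := Finset.mem_sdiff.mp hχ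
      have hbelow : ∀ y ∈ S, d y < d χ → y ∈ X := fun y hy hlt => by
        by_contra hc
        have := hmin y (Finset.mem_sdiff.mpr ⟨hy, hc⟩)
        omega
      have hne : d χ ≠ 1 := fun h => hχX (h0X (Finset.mem_filter.mpr ⟨hχS, h⟩))
      have hlt : 2 * d χ < ∑ x ∈ X, d x ^ 2 := (hbase χ hχS hne).trans_le
        (Finset.sum_le_sum_of_subset fun y hy =>
          hbelow y (Finset.mem_filter.mp hy).1 (Finset.mem_filter.mp hy).2)
      obtain ⟨u, hu⟩ := hu
      refine ih (insert χ X) ?_ (Finset.insert_subset hχS hXS) (h0X.trans (Finset.subset_insert _ _))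
        (fun x hx y hy hxy => ?_) (feit_step (fun x hx => hirr x hx) hτ hτ1 hdS hd1
          (fun x hx => hXS hx) hu hχS hχX hlt)
      · rw [Finset.sdiff_insert, Finset.card_erase_of_mem hχ, hn, Nat.add_sub_cancel]
      · rcases Finset.mem_insert.mp hx with rfl | hx
        · exact Finset.mem_insert_of_mem (hbelow y hy hxy)
        · exact Finset.mem_insert_of_mem (hclosed x hx y hy hxy)
  have hpos : ∀ x ∈ S, 0 < d x := fun x hx => Nat.pos_of_ne_zero fun h => by
    have := hd x hx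
    rw [h, Nat.cast_zero, zero_mul] at this
    exact irr_degree_ne_zero (hirr x hx) this
  obtain ⟨u, hu⟩ := grow _ X₀ rfl (Finset.filter_subset _ _) subset_rfl
    (fun x hx y hy hlt => by
      have h2 := (Finset.mem_filter.mp hx).2
      have h3 := hpos y hy
      omega) hbase0
  exact coherent_of_feitBase S hirr hτ hd htwo hu

end Cfsg.Agent.Lib.Dade
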