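import Cfsg.Agent.Lib.Dade.NilDescent
import Mathlib.GroupTheory.Sylow
import Mathlib.GroupTheory.GroupAction.ConjAct

/-!
Sections of `K` on which `L / K` acts without fixed points; nilpotent groups and their commutator
quotient; coherence of the linear members.
-/

set_option autoImplicit false

namespace Cfsg.Agent.Lib.Dade

open Cfsg Cfsg.Agent.Lib.Char

universe u

section Group

variable {L : Type u} [Group L] [Finite L]

/-- `[L : K]` divides `[N : H₁] - 1` for normal `N` between `H₁` and `K`. -/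
theorem dvd_section_sub_one {K H₁ N : Subgroup L} [H₁.Normal] [N.Normal]
    (h1N : H₁ ≤ N) (hNK : N ≤ K) (habel : ∀ x ∈ K, ∀ y ∈ K, x * y * x⁻¹ * y⁻¹ ∈ H₁)
    (hfrob : ∀ k ∈ K, k ∉ H₁ → ∀ x : L, x * k * x⁻¹ * k⁻¹ ∈ H₁ → x ∈ K) :
    K.index ∣ H₁.relIndex N - 1 := by
  classical
  let π := QuotientGroup.mk' H₁
  have hsurj : Function.Surjective π := QuotientGroup.mk'_surjective H₁
  have hker : π.ker = H₁ := QuotientGroup.ker_mk' H₁
  let X := N.map π
  haveI hXn : X.Normal := Subgroup.Normal.map inferInstance π hsurj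
  have hXcard : Nat.card X = H₁.relIndex N := by rw [← Subgroup.relIndex_ker, hker]
  have := Fintype.ofFinite (L ⧸ H₁)
  let Y := (Finset.univ.filter fun q : L ⧸ H₁ => q ∈ X).erase 1
  have hYcard : Y.card = H₁.relIndex N - 1 := by
    rw [← hXcard, Finset.card_erase_of_mem (Finset.mem_filter.mpr ⟨Finset.mem_univ _, X.one_mem⟩),
      ← Fintype.card_subtype, ← Nat.card_eq_fintype_card]
  rw [← hYcard]
  rw [Finset.card_eq_sum_card_image ConjClasses.mk Y]
  refine Finset.dvd_sum fun c hc => ?_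
  obtain ⟨q, hq, rfl⟩ := Finset.mem_image.mp hc
  obtain ⟨hq1, hqX⟩ := Finset.mem_erase.mp hq
  replace hqX := (Finset.mem_filter.mp hqX).2
  obtain ⟨k, hkN, rfl⟩ := hqX
  have hk : k ∉ H₁ := fun h => hq1 ((QuotientGroup.eq_one_iff k).mpr h)
  have hset : ↑(Y.filter fun y => ConjClasses.mk y = ConjClasses.mk (π k)) =
      MulAction.orbit (ConjAct (L ⧸ H₁)) (π k) := by
    rw [ConjAct.orbit_eq_carrier_conjClasses]
    ext y
    rw [ConjClasses.mem_carrier_iff_mk_eq]
    simp only [Finset.coe_filter, Set.mem_setOf_eq]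
    refine ⟨fun h => h.2, fun h => ⟨Finset.mem_erase.mpr ⟨fun e => hq1 ?_,
      Finset.mem_filter.mpr ⟨Finset.mem_univ _, ?_⟩⟩, h⟩⟩
    · subst e
      obtain ⟨u, hu⟩ := isConj_iff.mp (ConjClasses.mk_eq_mk_iff_isConj.mp h)
      rw [← hu]; simp
    · obtain ⟨u, hu⟩ := isConj_iff.mp (ConjClasses.mk_eq_mk_iff_isConj.mp h.symm)
      rw [← hu]
      exact hXn.conj_mem _ (Subgroup.mem_map_of_mem π hkN) u
  rw [← Set.ncard_coe_finset, hset, ← MulAction.index_stabilizer]
  have hstab : MulAction.stabilizer (ConjAct (L ⧸ H₁)) (π k) =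
      (K.map π).map (ConjAct.toConjAct : (L ⧸ H₁) ≃* ConjAct (L ⧸ H₁)).toMonoidHom := by
    ext u
    obtain ⟨u, rfl⟩ := (ConjAct.toConjAct : (L ⧸ H₁) ≃* ConjAct (L ⧸ H₁)).surjective u
    obtain ⟨g, rfl⟩ := hsurj u
    rw [MulAction.mem_stabilizer_iff, ConjAct.toConjAct_smul, Subgroup.mem_map]
    constructor
    · intro h
      refine ⟨π g, Subgroup.mem_map_of_mem π (hfrob k (hNK hkN) hk g ?_), rfl⟩
      rw [← QuotientGroup.eq_one_iff]
      show π (g * k * g⁻¹ * k⁻¹) = 1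
      simp only [map_mul, map_inv, h, mul_inv_cancel]
    · rintro ⟨y, ⟨g', hg', rfl⟩, hy⟩
      have hy' : π g' = π g := (ConjAct.toConjAct : (L ⧸ H₁) ≃* ConjAct (L ⧸ H₁)).injective hy
      rw [← hy', mul_inv_eq_iff_eq_mul, ← map_mul, ← map_mul, ← inv_mul_eq_one, ← map_inv, ← map_mul]
      refine (QuotientGroup.eq_one_iff _).mpr ?_
      rw [show (g' * k)⁻¹ * (k * g') = k⁻¹ * g'⁻¹ * k⁻¹⁻¹ * g'⁻¹⁻¹ by group]
      exact habel _ (K.inv_mem (hNK hkN)) _ (K.inv_mem hg')
  rw [hstab, MulEquiv.toMonoidHom_eq_coe, Subgroup.index_map_equiv, Subgroup.index_map_eq _ hsurj (hker.le.trans (h1N.trans hNK))]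

omit [Finite L] in
/-- An odd number greater than one congruent to one modulo an odd `e`. -/
theorem two_mul_add_one_le {e a : ℕ} (he : Odd e) (ha : Odd a) (ha1 : 1 < a) (hd : e ∣ a - 1) :
    2 * e + 1 ≤ a := by
  obtain ⟨t, ht⟩ := hd
  obtain ⟨u, hu⟩ := ha
  have hev : Even (e * t) := ⟨u, by omega⟩
  rcases Nat.even_mul.mp hev with h | h
  · exact absurd h (Nat.not_even_iff_odd.mpr he)
  · obtain ⟨s, rfl⟩ := h
    rcases Nat.eq_zero_or_pos s with rfl | hs
    · omega
    · have : e * 2 ≤ e * (s + s) := Nat.mul_le_mul_left e (by omega)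
      omega

/-- In a nilpotent group a subgroup covering the commutator quotient is everything. -/
theorem eq_top_of_sup_commutator_eq_top {Q : Type u} [Group Q] [Finite Q]
    (hQ : Group.IsNilpotent Q) {P : Subgroup Q} (h : P ⊔ commutator Q = ⊤) : P = ⊤ := by
  by_contra hne
  obtain ⟨M, hM, hPM⟩ := (eq_top_or_exists_le_coatom P).resolve_left hne
  haveI : M.Normal := Subgroup.NormalizerCondition.normal_of_coatom M
    (Group.normalizerCondition_of_isNilpotent (G := Q)) hM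
  haveI : Group.IsNilpotent (⊤ : Subgroup Q) := Group.isNilpotent_top.mpr hQ
  haveI : ((⊥ : Subgroup Q).subgroupOf ⊤).Normal := inferInstance
  have hnil : Group.IsNilpotent ((⊤ : Subgroup Q) ⧸ (⊥ : Subgroup Q).subgroupOf ⊤) := inferInstance
  refine not_le_commutator_sup hnil (bot_le : ⊥ ≤ M) le_rfl (fun h' => hM.1 (top_le_iff.mp h')) ?_
  refine le_trans h.ge ?_
  rw [commutator_def, sup_comm]
  exact sup_le_sup le_rfl hPM

end Group

section Characters

variable {L : Type u} [Group L] [Fintype L] {G : Type*} [Group G] [Fintype G] {K : Subgroup L}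
  [K.Normal]

/-- The characters above a subgroup with abelian quotient form a coherent set. -/
theorem coherent_linear (hsolv : Group.IsSolvable K) {τ : (L → ℂ) → (G → ℂ)}
    {R : (L → ℂ) → Finset (G → ℂ)} (hS : IsCoherenceSystem (inducedIrrAbove K ⊥) τ R)
    {H₁ : Subgroup L} [H₁.Normal] (hH₁K : H₁ < K)
    (habel : ∀ x ∈ K, ∀ y ∈ K, x * y * x⁻¹ * y⁻¹ ∈ H₁) :
    IsCoherent (inducedIrrAbove K H₁) {1}ᶜ τ := by
  have := Fintype.ofFinite K
  obtain ⟨θ₀, hθ₀, -⟩ := exists_linear_above K hsolv H₁ hH₁K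
  refine S1517.result _ τ R (system_mono hS (above_subset K H₁)
    ⟨_, (mem_above K).mpr ⟨θ₀, hθ₀, rfl⟩⟩ fun φ hφ => above_conj K H₁ hφ) ?_
  have hdeg : ∀ φ ∈ inducedIrrAbove K H₁, φ 1 = (K.index : ℂ) := by
    intro φ hφ
    obtain ⟨θ, hθ, rfl⟩ := (mem_above K).mp hφ
    have h := sq_degree_le_section θ.2 K K le_rfl le_rfl fun x y _ _ =>
      hθ.2 _ (habel x x.2 y y.2)
    rw [Subgroup.relIndex_self, one_pow, one_mul] at h
    have h1 : charDegree (θ : K → ℂ) = 1 := by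
      have h0 : charDegree (θ : K → ℂ) ≠ 0 := fun h0 => irr_degree_ne_zero θ.2 (by
        rw [apply_one_eq_charDegree (isCharacter_of_isIrr θ.2), h0, Nat.cast_zero])
      rw [pow_two] at h
      nlinarith [Nat.pos_of_ne_zero h0]
    rw [apply_one_eq_charDegree (isCharacter_indFun K (isCharacter_of_isIrr θ.2)),
      ind_degree K θ.2, h1, mul_one]
  intro φ hφ ψ hψ
  rw [hdeg φ hφ, hdeg ψ hψ]

end Characters

end Cfsg.Agent.Lib.Dade
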