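import Cfsg.Agent.Lib.Dade.FeitStep
import Mathlib.Tactic

/-!
Joining a coherent set of characters of least degree to a second coherent set.
-/

set_option autoImplicit false

open scoped ComplexConjugate

namespace Cfsg.Agent.Lib.Dade

open Cfsg Cfsg.Agent.Lib.Char

universe u v

variable {L : Type u} [Group L] [Fintype L] {G : Type v} [Group G] [Fintype G]
  {τ : (L → ℂ) → G → ℂ}

/-- The images of the members of a coherent set. -/
theorem exists_images {S : Set (L → ℂ)} (h : IsCoherent S {1}ᶜ τ) :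
    ∃ u : (L → ℂ) → G → ℂ, (∀ x ∈ S, IsGeneralizedCharacter G (u x)) ∧
      (∀ x ∈ S, ∀ y ∈ S, classInner (u x) (u y) = classInner x y) ∧
      ∀ x ∈ S, ∀ y ∈ S, ∀ c : ℕ, x 1 = c * y 1 → τ (x - c • y) = u x - c • u y := by
  obtain ⟨-, T, hT, hTe⟩ := h
  refine ⟨T, fun x hx => hT.2.2.2 x (zspan_subset hx),
    fun x hx y hy => hT.2.2.1 x (zspan_subset hx) y (zspan_subset hy), fun x hx y hy c hc => ?_⟩
  have hmy : c • y ∈ zspan S := by rw [← natCast_zsmul]; exact zspan_smul _ (zspan_subset hy)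
  have hm : x - c • y ∈ zspanOn S {1}ᶜ :=
    mem_zspanOn.mpr ⟨zspan_sub (zspan_subset hx) hmy, by
      rw [Pi.sub_apply, Pi.smul_apply, nsmul_eq_mul, hc, sub_self]⟩
  rw [← hTe _ hm, sub_eq_add_neg, ← natCast_zsmul, ← neg_smul,
    hT.1 x (zspan_subset hx) _ (zspan_smul _ (zspan_subset hy)), hT.2.1 y (zspan_subset hy), neg_smul,
    ← sub_eq_add_neg, natCast_zsmul]

/-- Two differences of orthonormal pairs that are orthogonal to each other have orthogonal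
members. -/
theorem cross_orth {a a' b b' : G → ℂ} (ha : IsGeneralizedCharacter G a)
    (ha' : IsGeneralizedCharacter G a') (hb : IsGeneralizedCharacter G b)
    (hb' : IsGeneralizedCharacter G b') (naa : classInner a a = 1) (naa' : classInner a' a' = 1)
    (nbb : classInner b b = 1) (nbb' : classInner b' b' = 1) (oa : classInner a a' = 0)
    (ob : classInner b b' = 0) (a1 : (a - a') 1 = 0) (b1 : (b - b') 1 = 0)
    (h : classInner (a - a') (b - b') = 0) : classInner a b = 0 := by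
  classical
  have key : ∀ {a a' : G → ℂ}, IsGeneralizedCharacter G a → IsGeneralizedCharacter G a' →
      classInner a a = 1 → classInner a' a' = 1 → classInner a a' = 0 → (a - a') 1 = 0 →
      ∃ (s : ℤ) (μ μ' : IrrCharacter G), (s = 1 ∨ s = -1) ∧ μ ≠ μ' ∧
        a = (s : ℂ) • (μ : G → ℂ) ∧ a' = (s : ℂ) • (μ' : G → ℂ) := by
    intro a a' ha ha' n n' o h1
    obtain ⟨μ, s, hs, rfl⟩ := CharClifford.exists_irr_of_generalized_norm_one ha n
    obtain ⟨μ', s', hs', rfl⟩ := CharClifford.exists_irr_of_generalized_norm_one ha' n'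
    have hss : s' = s := by
      rw [Pi.sub_apply, Pi.smul_apply, Pi.smul_apply, smul_eq_mul, smul_eq_mul,
        apply_one_eq_charDegree (isCharacter_of_isIrr μ.2),
        apply_one_eq_charDegree (isCharacter_of_isIrr μ'.2), sub_eq_zero] at h1
      have h2 : s * (charDegree (μ : G → ℂ) : ℤ) = s' * (charDegree (μ' : G → ℂ) : ℤ) := by
        exact_mod_cast h1
      have p1 : 0 < charDegree (μ : G → ℂ) := Nat.pos_of_ne_zero fun h => irr_degree_ne_zero μ.2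
        (by rw [apply_one_eq_charDegree (isCharacter_of_isIrr μ.2), h, Nat.cast_zero])
      have p2 : 0 < charDegree (μ' : G → ℂ) := Nat.pos_of_ne_zero fun h => irr_degree_ne_zero μ'.2
        (by rw [apply_one_eq_charDegree (isCharacter_of_isIrr μ'.2), h, Nat.cast_zero])
      rcases hs with rfl | rfl <;> rcases hs' with rfl | rfl <;> omega
    refine ⟨s, μ, μ', hs, fun h => ?_, rfl, by rw [hss]⟩
    rw [hss, h, classInner_smul_left, classInner_smul_right, classInner_irrCharacter, if_pos rfl,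
      mul_one, map_intCast] at o
    rcases hs with rfl | rfl <;> norm_num at o
  obtain ⟨s, μ, μ', hs, hμ, rfl, rfl⟩ := key ha ha' naa naa' oa a1
  obtain ⟨t, ν, ν', ht, hν, rfl, rfl⟩ := key hb hb' nbb nbb' ob b1
  rw [classInner_smul_left, classInner_smul_right, classInner_irrCharacter]
  by_cases he : μ = ν
  · exfalso
    subst he
    simp only [classInner_sub_left, classInner_sub_right, classInner_smul_left,
      classInner_smul_right, classInner_irrCharacter, if_pos, if_neg hν, if_neg (Ne.symm hμ),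
      map_intCast] at h
    rcases hs with rfl | rfl <;> rcases ht with rfl | rfl <;> split_ifs at h <;> norm_num at h
  · rw [if_neg he, mul_zero, mul_zero]

/-- Glue a coherent set `W` to the coherent set `X₀` of characters of least degree. -/
theorem glue {S : Set (L → ℂ)} (hirr : ∀ x ∈ S, IsIrrCharacter L x)
    (hτ : IsLinearIsometryOn (zspanOn S {1}ᶜ) τ) (hτ1 : ∀ α ∈ zspanOn S {1}ᶜ, τ α 1 = 0)
    (σ : (L → ℂ) → L → ℂ) {X₀ W : Finset (L → ℂ)} (h0S : ∀ x ∈ X₀, x ∈ S) (hWS : ∀ y ∈ W, y ∈ S)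
    (hdis : Disjoint X₀ W) {d c : (L → ℂ) → ℕ} {x₁ y₁ : L → ℂ} (hd : ∀ x ∈ S, x 1 = d x * x₁ 1)
    (hd0 : ∀ x ∈ X₀, d x = 1) (hc : ∀ y ∈ W, d y = c y * d y₁) (hc1 : c y₁ = 1)
    (hx₁ : x₁ ∈ X₀) (hy₁ : y₁ ∈ W) (hσx : σ x₁ ∈ X₀ ∧ σ x₁ ≠ x₁ ∧ σ (σ x₁) = x₁)
    (hσy : σ y₁ ∈ W ∧ σ y₁ ≠ y₁ ∧ σ (σ y₁) = y₁ ∧ c (σ y₁) = 1)
    {u₀ u₁ : (L → ℂ) → G → ℂ} (g0 : ∀ x ∈ X₀, IsGeneralizedCharacter G (u₀ x))
    (o0 : ∀ x ∈ X₀, ∀ y ∈ X₀, classInner (u₀ x) (u₀ y) = classInner x y)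
    (e0 : ∀ x ∈ X₀, τ (x - x₁) = u₀ x - u₀ x₁)
    (g1 : ∀ x ∈ W, IsGeneralizedCharacter G (u₁ x))
    (o1 : ∀ x ∈ W, ∀ y ∈ W, classInner (u₁ x) (u₁ y) = classInner x y)
    (e1 : ∀ y ∈ W, τ (y - c y • y₁) = u₁ y - c y • u₁ y₁)
    (hcross : ∀ x ∈ X₀, ∀ y ∈ W, classInner (u₀ x) (u₁ y) = 0)
    (hcong : ∃ m : ℤ, classInner (τ (y₁ - d y₁ • x₁)) (u₀ x₁) + d y₁ = m * d y₁) :
    ∃ u, FeitBase τ d x₁ (X₀ ∪ W) u := by
  classical
  set d₁ := d y₁ with hd₁
  have hx₁S := h0S _ hx₁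
  have hy₁S := hWS _ hy₁
  have hpos : ∀ x ∈ S, 0 < d x := fun x hx => Nat.pos_of_ne_zero fun h => by
    have := hd x hx
    rw [h, Nat.cast_zero, zero_mul] at this
    exact irr_degree_ne_zero (hirr x hx) this
  have hcpos : ∀ y ∈ W, 0 < c y := fun y hy => Nat.pos_of_ne_zero fun h => by
    have := hpos y (hWS y hy)
    rw [hc y hy, h, zero_mul] at this
    omega
  have hI : ∀ a ∈ S, ∀ b ∈ S, classInner a b = if a = b then 1 else 0 := fun a ha b hb => by
    split_ifs with h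
    · rw [h, classInner_irr_self (hirr b hb)]
    · exact classInner_irr_ne (hirr a ha) (hirr b hb) h
  have hne : ∀ x ∈ X₀, ∀ y ∈ W, x ≠ y := fun x hx y hy h =>
    Finset.disjoint_left.mp hdis hx (h ▸ hy)
  set φ := y₁ - d₁ • x₁ with hφdef
  have hφ : φ ∈ zspanOn S {1}ᶜ := diff_mem_zspanOn hd hy₁S hx₁S
  have hgen := hτ.2.2.2 φ hφ
  have hns : ∀ (n : ℕ) (ψ y : L → ℂ), classInner y (n • ψ) = (n : ℂ) * classInner y ψ := fun n ψ y => by
    rw [← natCast_zsmul, classInner_zsmul_right, Int.cast_natCast]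
  have hns' : ∀ (n : ℕ) (ψ y : L → ℂ), classInner (n • ψ) y = (n : ℂ) * classInner ψ y := fun n ψ y => by
    rw [← natCast_zsmul, classInner_zsmul_left, Int.cast_natCast]
  obtain ⟨m, hm⟩ := hcong
  obtain ⟨B, hB⟩ := classInner_int hgen (g1 y₁ hy₁)
  -- the coefficients
  set co0 : (L → ℂ) → ℤ := fun x => m * d₁ - if x = x₁ then (d₁ : ℤ) else 0 with hco0
  set co1 : (L → ℂ) → ℤ := fun y => (c y : ℤ) * (B - 1) + if y = y₁ then 1 else 0 with hco1
  have hc0 : ∀ x ∈ X₀, classInner (τ φ) (u₀ x) = (co0 x : ℂ) := by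
    intro x hx
    by_cases h : x = x₁
    · subst h
      simp only [hco0, if_pos]
      push_cast
      linear_combination hm
    · have h2 : x - x₁ ∈ zspanOn S {1}ᶜ := by
        have := diff_mem_zspanOn hd (h0S x hx) hx₁S
        rwa [hd0 x hx, one_smul] at this
      have h1 := hτ.2.2.1 φ hφ _ h2
      rw [e0 x hx, classInner_sub_right, hφdef, classInner_sub_left, classInner_sub_right,
        classInner_sub_right, hns', hns', hI _ hy₁S _ (h0S x hx), hI _ hy₁S _ hx₁S,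
        hI _ hx₁S _ (h0S x hx), hI _ hx₁S _ hx₁S, if_neg (hne x hx _ hy₁).symm,
        if_neg (hne _ hx₁ _ hy₁).symm, if_neg (Ne.symm h), if_pos rfl] at h1
      simp only [hco0, if_neg h]
      push_cast
      rw [← hφdef] at h1
      linear_combination h1 + hm
  have hc1' : ∀ y ∈ W, classInner (τ φ) (u₁ y) = (co1 y : ℂ) := by
    intro y hy
    by_cases h : y = y₁
    · subst h
      simp only [hco1, if_pos, hc1, hB]
      push_cast
      ring
    · have h2 : y - c y • y₁ ∈ zspanOn S {1}ᶜ := by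
        refine mem_zspanOn.mpr ⟨zspan_sub (zspan_subset (hWS y hy)) ?_, ?_⟩
        · rw [← natCast_zsmul]; exact zspan_smul _ (zspan_subset hy₁S)
        · rw [Pi.sub_apply, Pi.smul_apply, hd y (hWS y hy), hd y₁ hy₁S, hc y hy, nsmul_eq_mul]
          push_cast
          ring
      have h1 := hτ.2.2.1 φ hφ _ h2
      rw [e1 y hy, classInner_sub_right, ← natCast_zsmul, classInner_zsmul_right, hB, hφdef,
        classInner_sub_left, classInner_sub_right, classInner_sub_right, hns', hns', hns, hns,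
        hI _ hy₁S _ (hWS y hy), hI _ hy₁S _ hy₁S, hI _ hx₁S _ (hWS y hy), hI _ hx₁S _ hy₁S,
        if_neg (hne _ hx₁ _ hy), if_neg (hne _ hx₁ _ hy₁), if_neg (Ne.symm h), if_pos rfl] at h1
      simp only [hco1, if_neg h]
      push_cast at h1 ⊢
      rw [← hφdef] at h1
      linear_combination h1
  -- the norm
  let U : (L → ℂ) → G → ℂ := fun x => if x ∈ X₀ then u₀ x else u₁ x
  let co : (L → ℂ) → ℤ := fun x => if x ∈ X₀ then co0 x else co1 x
  have hU0 : ∀ x ∈ X₀, U x = u₀ x ∧ co x = co0 x := fun x hx => ⟨if_pos hx, if_pos hx⟩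
  have hU1 : ∀ x ∈ W, U x = u₁ x ∧ co x = co1 x := fun x hx =>
    ⟨if_neg fun h => hne x h x hx rfl, if_neg fun h => hne x h x hx rfl⟩
  have hUo : ∀ x ∈ X₀ ∪ W, ∀ y ∈ X₀ ∪ W, classInner (U x) (U y) = if x = y then 1 else 0 := by
    intro x hx y hy
    rcases Finset.mem_union.mp hx with hx | hx <;> rcases Finset.mem_union.mp hy with hy | hy
    · rw [(hU0 x hx).1, (hU0 y hy).1, o0 x hx y hy, hI _ (h0S x hx) _ (h0S y hy)]
    · rw [(hU0 x hx).1, (hU1 y hy).1, hcross x hx y hy, if_neg (hne x hx y hy)]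
    · rw [(hU1 x hx).1, (hU0 y hy).1, classInner_conj_symm, hcross y hy x hx, map_zero,
        if_neg (hne y hy x hx).symm]
    · rw [(hU1 x hx).1, (hU1 y hy).1, o1 x hx y hy, hI _ (hWS x hx) _ (hWS y hy)]
  have hUc : ∀ x ∈ X₀ ∪ W, classInner (τ φ) (U x) = (co x : ℂ) := by
    intro x hx
    rcases Finset.mem_union.mp hx with hx | hx
    · rw [(hU0 x hx).1, (hU0 x hx).2]; exact hc0 x hx
    · rw [(hU1 x hx).1, (hU1 x hx).2]; exact hc1' x hx
  set Δ := τ φ - ∑ x ∈ X₀ ∪ W, (co x : ℂ) • U x with hΔ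
  have hφφ : classInner (τ φ) (τ φ) = (((d₁ : ℤ) ^ 2 + 1 : ℤ) : ℂ) := by
    rw [hτ.2.2.1 φ hφ φ hφ, hφdef, classInner_sub_left, classInner_sub_right,
      classInner_sub_right, hns', hns', hns, hns, hI _ hy₁S _ hy₁S, hI _ hy₁S _ hx₁S,
      hI _ hx₁S _ hy₁S, hI _ hx₁S _ hx₁S, if_pos rfl, if_neg (hne _ hx₁ _ hy₁),
      if_neg (hne _ hx₁ _ hy₁).symm, if_pos rfl]
    push_cast; ring
  set s : ℤ := (X₀.card : ℤ) with hs
  set C : ℤ := ∑ y ∈ W, (c y : ℤ) ^ 2 with hC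
  have hsum : ∑ x ∈ X₀ ∪ W, co x ^ 2 = (m * d₁ - d₁) ^ 2 + (s - 1) * (m * d₁) ^ 2 +
      (B ^ 2 + (C - 1) * (B - 1) ^ 2) := by
    have e0s : ∑ x ∈ X₀, co x ^ 2 = (m * d₁ - d₁) ^ 2 + (s - 1) * (m * (d₁ : ℤ)) ^ 2 := by
      rw [← Finset.add_sum_erase _ _ hx₁,
        Finset.sum_congr rfl (g := fun _ => (m * (d₁ : ℤ)) ^ 2) fun x hx => by
          rw [(hU0 x (Finset.mem_of_mem_erase hx)).2]
          simp only [hco0, if_neg (Finset.mem_erase.mp hx).1, sub_zero],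
        Finset.sum_const, Finset.card_erase_of_mem hx₁, nsmul_eq_mul,
        Nat.cast_sub (Finset.card_pos.mpr ⟨x₁, hx₁⟩), (hU0 x₁ hx₁).2, ← hs]
      simp only [hco0, if_pos]
      push_cast
      ring
    have e1s : ∑ y ∈ W, co y ^ 2 = B ^ 2 + (C - 1) * (B - 1) ^ 2 := by
      rw [← Finset.add_sum_erase _ _ hy₁,
        Finset.sum_congr rfl (g := fun y => (B - 1) ^ 2 * (c y : ℤ) ^ 2) fun y hy => by
          rw [(hU1 y (Finset.mem_of_mem_erase hy)).2]
          simp only [hco1, if_neg (Finset.mem_erase.mp hy).1]; ring,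
        ← Finset.mul_sum, Finset.sum_erase_eq_sub hy₁, (hU1 y₁ hy₁).2, ← hC]
      simp only [hco1, if_pos, hc1]
      push_cast
      ring
    rw [Finset.sum_union hdis, e0s, e1s]
  have hΔn : classInner Δ Δ = (((d₁ : ℤ) ^ 2 + 1 - ((m * d₁ - d₁) ^ 2 + (s - 1) * (m * d₁) ^ 2 +
      (B ^ 2 + (C - 1) * (B - 1) ^ 2)) : ℤ) : ℂ) := by
    rw [hΔ, classInner_remainder _ U (fun x => (co x : ℂ)) (τ φ)
      (fun x hx y hy h => by rw [hUo x hx y hy, if_neg h]) fun x hx => by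
      rw [hUc x hx, hUo x hx x hx, if_pos rfl, mul_one], hφφ,
      Finset.sum_congr rfl (g := fun x => ((co x ^ 2 : ℤ) : ℂ)) fun x hx => by
        rw [hUo x hx x hx, if_pos rfl, map_intCast]; push_cast; ring,
      ← Int.cast_sum, hsum, ← Int.cast_sub]
  have hnn := classInner_self_re_nonneg Δ
  rw [hΔn, Complex.intCast_re] at hnn
  have hnn' : 0 ≤ (d₁ : ℤ) ^ 2 + 1 - ((m * d₁ - d₁) ^ 2 + (s - 1) * (m * d₁) ^ 2 +
      (B ^ 2 + (C - 1) * (B - 1) ^ 2)) := by exact_mod_cast hnn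
  have hs2 : ({x₁, σ x₁} : Finset (L → ℂ)) ⊆ X₀ := by
    simp [Finset.insert_subset_iff, hx₁, hσx.1]
  have hW2 : ({y₁, σ y₁} : Finset (L → ℂ)) ⊆ W := by
    simp [Finset.insert_subset_iff, hy₁, hσy.1]
  have hs2' : 2 ≤ s := by
    have := Finset.card_le_card hs2
    rw [Finset.card_pair hσx.2.1.symm] at this
    omega
  have hWC : (W.card : ℤ) ≤ C := by
    rw [hC, Finset.card_eq_sum_ones, Nat.cast_sum]
    exact Finset.sum_le_sum fun y hy => by
      have := hcpos y hy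
      push_cast
      nlinarith
  have hC2 : 2 ≤ C := by
    have := Finset.card_le_card hW2
    rw [Finset.card_pair hσy.2.1.symm] at this
    omega
  set Y := s * m ^ 2 - 2 * m with hY
  set V := C * (B - 1) ^ 2 + 2 * (B - 1) with hV
  have hYV : 0 ≤ -((d₁ : ℤ) ^ 2 * Y + V) := by rw [hY, hV]; linarith
  have hd1pos : (1 : ℤ) ≤ (d₁ : ℤ) ^ 2 := by
    have := hpos y₁ hy₁S
    exact one_le_pow₀ (by omega)
  have hY0 : 0 ≤ Y ∧ (Y = 0 → m = 0 ∨ (m = 1 ∧ s = 2)) := by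
    rw [hY]
    rcases (by omega : m ≤ -1 ∨ m = 0 ∨ m = 1 ∨ 2 ≤ m) with h | h | h | h
    · exact ⟨by nlinarith, fun e => by nlinarith⟩
    · subst h; exact ⟨by simp, fun _ => Or.inl rfl⟩
    · subst h; exact ⟨by linarith, fun e => Or.inr ⟨rfl, by linarith⟩⟩
    · exact ⟨by nlinarith, fun e => by nlinarith⟩
  have hV0 : 0 ≤ V ∧ (V = 0 → B = 1 ∨ (B = 0 ∧ C = 2)) := by
    rw [hV]
    rcases (by omega : B ≤ -1 ∨ B = 0 ∨ B = 1 ∨ 2 ≤ B) with h | h | h | h
    · exact ⟨by nlinarith, fun e => by nlinarith⟩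
    · subst h; exact ⟨by linarith, fun e => Or.inr ⟨rfl, by linarith⟩⟩
    · subst h; exact ⟨by simp, fun _ => Or.inl rfl⟩
    · exact ⟨by nlinarith, fun e => by nlinarith⟩
  have hYe : Y = 0 := by
    have h1 : Y ≤ (d₁ : ℤ) ^ 2 * Y := le_mul_of_one_le_left hY0.1 hd1pos
    linarith [hY0.1, hV0.1]
  have hVe : V = 0 := by
    have h1 : 0 ≤ (d₁ : ℤ) ^ 2 * Y := mul_nonneg (by linarith) hY0.1
    linarith [hV0.1]
  have hΔ0 : τ φ = ∑ x ∈ X₀ ∪ W, (co x : ℂ) • U x := by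
    refine sub_eq_zero.mp (eq_zero_of_classInner_self Δ ?_)
    rw [hΔn, show (d₁ : ℤ) ^ 2 + 1 - ((m * d₁ - d₁) ^ 2 + (s - 1) * (m * d₁) ^ 2 +
      (B ^ 2 + (C - 1) * (B - 1) ^ 2)) = -((d₁ : ℤ) ^ 2 * Y + V) by rw [hY, hV]; ring, hYe, hVe]
    simp
  rw [Finset.sum_union hdis, Finset.sum_congr (s₁ := X₀) rfl (g := fun x => (co0 x : ℂ) • u₀ x)
      (fun x hx => by rw [(hU0 x hx).1, (hU0 x hx).2]),
    Finset.sum_congr (s₁ := W) rfl (g := fun x => (co1 x : ℂ) • u₁ x)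
      (fun x hx => by rw [(hU1 x hx).1, (hU1 x hx).2])] at hΔ0
  -- exchanging the members of a pair
  have swap : ∀ (X : Finset (L → ℂ)) (a : L → ℂ) (u : (L → ℂ) → G → ℂ), (∀ x ∈ X, x ∈ S) →
      X = {a, σ a} → σ a ≠ a → σ (σ a) = a → (∀ x ∈ X, IsGeneralizedCharacter G (u x)) →
      (∀ x ∈ X, ∀ y ∈ X, classInner (u x) (u y) = classInner x y) →
      (∀ x ∈ X, IsGeneralizedCharacter G (-u (σ x))) ∧
      (∀ x ∈ X, ∀ y ∈ X, classInner (-u (σ x)) (-u (σ y)) = classInner x y) ∧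
      ∀ x ∈ X, σ x ∈ X := by
    intro X a u hXS hX hne' hσσ g o
    have hmem : ∀ x ∈ X, σ x ∈ X := fun x hx => by
      rw [hX, Finset.mem_insert, Finset.mem_singleton] at hx ⊢
      rcases hx with rfl | rfl
      · exact Or.inr rfl
      · exact Or.inl hσσ
    have hinj : ∀ x ∈ X, σ (σ x) = x := fun x hx => by
      rw [hX, Finset.mem_insert, Finset.mem_singleton] at hx
      rcases hx with rfl | rfl
      · exact hσσ
      · rw [hσσ]
    refine ⟨fun x hx => generalized_neg (g _ (hmem x hx)), fun x hx y hy => ?_, hmem⟩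
    rw [← neg_one_smul ℂ (u (σ x)), ← neg_one_smul ℂ (u (σ y)), classInner_smul_left,
      classInner_smul_right, o _ (hmem x hx) _ (hmem y hy), hI _ (hXS _ (hmem x hx)) _
        (hXS _ (hmem y hy)), hI _ (hXS x hx) _ (hXS y hy)]
    have : σ x = σ y ↔ x = y := ⟨fun h => by rw [← hinj x hx, h, hinj y hy], fun h => by rw [h]⟩
    simp [this]
  obtain ⟨v₀, g0', o0', e0', p0, i0⟩ : ∃ v : (L → ℂ) → G → ℂ,
      (∀ x ∈ X₀, IsGeneralizedCharacter G (v x)) ∧
      (∀ x ∈ X₀, ∀ y ∈ X₀, classInner (v x) (v y) = classInner x y) ∧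
      (∀ x ∈ X₀, τ (x - x₁) = v x - v x₁) ∧
      (∑ x ∈ X₀, (co0 x : ℂ) • u₀ x = -((d₁ : ℂ) • v x₁)) ∧
      ∀ x ∈ X₀, ∃ x' ∈ X₀, ∃ t : ℂ, v x = t • u₀ x' := by
    rcases hY0.2 hYe with hm0 | ⟨hm1, hs'⟩
    · refine ⟨u₀, g0, o0, e0, ?_, fun x hx => ⟨x, hx, 1, (one_smul ℂ _).symm⟩⟩
      rw [Finset.sum_eq_single x₁ (fun x _ h => by simp [hco0, hm0, h]) (fun h => absurd hx₁ h)]
      simp [hco0, hm0]
    · have hX : X₀ = {x₁, σ x₁} := by
        refine (Finset.eq_of_subset_of_card_le hs2 ?_).symm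
        rw [Finset.card_pair hσx.2.1.symm]
        omega
      obtain ⟨a, b, hmem⟩ := swap X₀ x₁ u₀ h0S hX hσx.2.1 hσx.2.2 g0 o0
      refine ⟨fun x => -u₀ (σ x), a, b, fun x hx => ?_, ?_,
        fun x hx => ⟨σ x, hmem x hx, -1, (neg_one_smul ℂ _).symm⟩⟩
      · rw [e0 x hx]
        rw [hX, Finset.mem_insert, Finset.mem_singleton] at hx
        rcases hx with rfl | rfl
        · simp
        · simp only [hσx.2.2]; abel
      · rw [hX, Finset.sum_pair hσx.2.1.symm]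
        simp [hco0, hm1, hσx.2.1]
  obtain ⟨v₁, g1', o1', e1', p1, i1⟩ : ∃ v : (L → ℂ) → G → ℂ,
      (∀ x ∈ W, IsGeneralizedCharacter G (v x)) ∧
      (∀ x ∈ W, ∀ y ∈ W, classInner (v x) (v y) = classInner x y) ∧
      (∀ y ∈ W, τ (y - c y • y₁) = v y - c y • v y₁) ∧
      (∑ y ∈ W, (co1 y : ℂ) • u₁ y = v y₁) ∧
      ∀ x ∈ W, ∃ x' ∈ W, ∃ t : ℂ, v x = t • u₁ x' := by
    rcases hV0.2 hVe with hB1 | ⟨hB0, hC'⟩
    · refine ⟨u₁, g1, o1, e1, ?_, fun x hx => ⟨x, hx, 1, (one_smul ℂ _).symm⟩⟩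
      rw [Finset.sum_eq_single y₁ (fun x _ h => by simp [hco1, hB1, h]) (fun h => absurd hy₁ h)]
      simp [hco1, hB1]
    · have hX : W = {y₁, σ y₁} := by
        refine (Finset.eq_of_subset_of_card_le hW2 ?_).symm
        rw [Finset.card_pair hσy.2.1.symm]
        omega
      obtain ⟨a, b, hmem⟩ := swap W y₁ u₁ hWS hX hσy.2.1 hσy.2.2.1 g1 o1
      refine ⟨fun x => -u₁ (σ x), a, b, fun x hx => ?_, ?_,
        fun x hx => ⟨σ x, hmem x hx, -1, (neg_one_smul ℂ _).symm⟩⟩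
      · rw [e1 x hx]
        rw [hX, Finset.mem_insert, Finset.mem_singleton] at hx
        rcases hx with rfl | rfl
        · simp [hc1]
        · simp only [hσy.2.2.1, hσy.2.2.2, one_smul]; abel
      · rw [hX, Finset.sum_pair hσy.2.1.symm]
        simp [hco1, hB0, hσy.2.1, hc1, hσy.2.2.2]
  rw [p0, p1] at hΔ0
  have hnsG : ∀ (n : ℕ) (f : G → ℂ), (n : ℂ) • f = n • f := fun n f => Nat.cast_smul_eq_nsmul ℂ n f
  have hφeq : τ φ = v₁ y₁ - d₁ • v₀ x₁ := by rw [hΔ0, hnsG]; abel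
  refine ⟨fun x => if x ∈ X₀ then v₀ x else v₁ x, Finset.mem_union_left _ hx₁, fun x hx => ?_,
    fun x hx y hy => ?_, fun x hx => ?_⟩
  · by_cases h : x ∈ X₀
    · simp only [if_pos h]; exact g0' x h
    · simp only [if_neg h]; exact g1' x ((Finset.mem_union.mp hx).resolve_left h)
  · have hcross' : ∀ a ∈ X₀, ∀ b ∈ W, classInner (v₀ a) (v₁ b) = 0 := fun a ha b hb => by
      obtain ⟨a', ha', t, ht⟩ := i0 a ha
      obtain ⟨b', hb', t', ht'⟩ := i1 b hb
      rw [ht, ht', classInner_smul_left, classInner_smul_right, hcross a' ha' b' hb', mul_zero,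
        mul_zero]
    by_cases h : x ∈ X₀ <;> by_cases h' : y ∈ X₀
    · simp only [if_pos h, if_pos h']; exact o0' x h y h'
    · have hyW := (Finset.mem_union.mp hy).resolve_left h'
      simp only [if_pos h, if_neg h']
      rw [hcross' x h y hyW, hI _ (h0S x h) _ (hWS y hyW), if_neg (hne x h y hyW)]
    · have hxW := (Finset.mem_union.mp hx).resolve_left h
      simp only [if_neg h, if_pos h']
      rw [classInner_conj_symm, hcross' y h' x hxW, map_zero, hI _ (hWS x hxW) _ (h0S y h'),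
        if_neg (hne y h' x hxW).symm]
    · simp only [if_neg h, if_neg h']
      exact o1' x ((Finset.mem_union.mp hx).resolve_left h) y ((Finset.mem_union.mp hy).resolve_left h')
  · by_cases h : x ∈ X₀
    · simp only [if_pos h, if_pos hx₁, hd0 x h, one_smul]; exact e0' x h
    · have hxW := (Finset.mem_union.mp hx).resolve_left h
      simp only [if_neg h, if_pos hx₁]
      have h2 : x - c x • y₁ ∈ zspanOn S {1}ᶜ := by
        refine mem_zspanOn.mpr ⟨zspan_sub (zspan_subset (hWS x hxW)) ?_, ?_⟩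
        · rw [← natCast_zsmul]; exact zspan_smul _ (zspan_subset hy₁S)
        · rw [Pi.sub_apply, Pi.smul_apply, hd x (hWS x hxW), hd y₁ hy₁S, hc x hxW, nsmul_eq_mul]
          push_cast
          ring
      have h3 : (c x : ℤ) • φ ∈ zspanOn S {1}ᶜ := mem_zspanOn.mpr
        ⟨zspan_smul _ (mem_zspanOn.mp hφ).1, by rw [Pi.smul_apply, (mem_zspanOn.mp hφ).2, smul_zero]⟩
      rw [show x - d x • x₁ = (x - c x • y₁) + (c x : ℤ) • φ by
          rw [hφdef, natCast_zsmul, smul_sub, ← mul_smul, ← hc x hxW]; abel,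
        hτ.1 _ h2 _ h3, hτ.2.1 _ hφ, e1' x hxW, hφeq, natCast_zsmul, smul_sub, ← mul_smul,
        ← hc x hxW]
      abel

end Cfsg.Agent.Lib.Dade
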