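import Cfsg.Agent.S1516
import Cfsg.Agent.S1517
import Cfsg.Agent.Lib.CharKernel
import Cfsg.Agent.Lib.Char.Clifford
import Cfsg.Agent.Lib.Char.Degree
import Mathlib.Tactic

/-!
Coherence systems of characters induced from a normal subgroup: restriction to subsets, greedy
extension, degrees, norms and sums.
-/

set_option autoImplicit false

open scoped ComplexConjugate

namespace Cfsg.Agent.Lib.Dade

open Cfsg Cfsg.Agent.Lib.Char

section Abstract

variable {L : Type*} [Group L] [Fintype L] {G : Type*} [Group G] [Fintype G]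
  {S : Set (L → ℂ)} {τ : (L → ℂ) → G → ℂ} {R : (L → ℂ) → Finset (G → ℂ)}

theorem zspanOn_mono {T : Set (L → ℂ)} (h : T ⊆ S) : zspanOn T {1}ᶜ ⊆ zspanOn S {1}ᶜ :=
  fun _ hα => ⟨zspan_mono h hα.1, hα.2⟩

variable (hS : IsCoherenceSystem S τ R)
include hS

/-- A nonempty subset closed under conjugation is a coherence system. -/
theorem system_mono {T : Set (L → ℂ)} (hTS : T ⊆ S) (hne : T.Nonempty)
    (hc : ∀ φ ∈ T, conjFun φ ∈ T) : IsCoherenceSystem T τ R :=
  { nonempty := hne
    isCharacter := fun χ h => hS.isCharacter χ (hTS h)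
    conj_mem := hc
    conj_ne := fun χ h => hS.conj_ne χ (hTS h)
    isometry := ⟨fun α hα β hβ => hS.isometry.1 α (zspanOn_mono hTS hα) β (zspanOn_mono hTS hβ),
      fun α hα n => hS.isometry.2.1 α (zspanOn_mono hTS hα) n,
      fun α hα β hβ => hS.isometry.2.2.1 α (zspanOn_mono hTS hα) β (zspanOn_mono hTS hβ),
      fun α hα => hS.isometry.2.2.2 α (zspanOn_mono hTS hα)⟩
    map_one := fun α hα => hS.map_one α (zspanOn_mono hTS hα)
    orthogonal := fun χ hχ φ hφ => hS.orthogonal χ (hTS hχ) φ (hTS hφ)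
    orthonormal := fun χ h => hS.orthonormal χ (hTS h)
    virtual := fun χ h => hS.virtual χ (hTS h)
    sum_eq := fun χ h => hS.sum_eq χ (hTS h)
    disjoint := fun χ hχ φ hφ => hS.disjoint χ (hTS hχ) φ (hTS hφ) }

/-- Coherence passes to nonempty subsets closed under conjugation. -/
theorem coherent_mono {T U : Set (L → ℂ)} (hTS : T ⊆ S) (hTU : T ⊆ U) (hne : T.Nonempty)
    (hc : ∀ φ ∈ T, conjFun φ ∈ T) (hU : IsCoherent U {1}ᶜ τ) : IsCoherent T {1}ᶜ τ := by
  obtain ⟨χ, hχ⟩ := hne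
  refine ⟨⟨χ - conjFun χ, ?_, system_diff_ne hS (hTS hχ)⟩, ?_⟩
  · obtain ⟨d, -, h1, h2⟩ := system_degree hS (hTS hχ)
    exact mem_zspanOn.mpr ⟨zspan_sub (zspan_subset hχ) (zspan_subset (hc χ hχ)),
      by rw [Pi.sub_apply, h1, h2, sub_self]⟩
  · obtain ⟨-, T₁, hT, hTτ⟩ := hU
    exact ⟨T₁, ⟨fun α hα β hβ => hT.1 α (zspan_mono hTU hα) β (zspan_mono hTU hβ),
      fun α hα n => hT.2.1 α (zspan_mono hTU hα) n,
      fun α hα β hβ => hT.2.2.1 α (zspan_mono hTU hα) β (zspan_mono hTU hβ),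
      fun α hα => hT.2.2.2 α (zspan_mono hTU hα)⟩, fun α hα => hTτ α (zspanOn_mono hTU hα)⟩

open scoped _root_.Classical in
/-- Adjoin conjugate pairs in increasing order of degree. -/
theorem coherent_greedy (d n : (L → ℂ) → ℕ) (hd : ∀ φ ∈ S, φ 1 = (d φ : ℂ))
    (hn : ∀ φ ∈ S, classInner φ φ = (n φ : ℂ)) (S₀ : Finset (L → ℂ)) (hS₀ : ↑S₀ ⊆ S)
    (hS₀c : ∀ φ ∈ S₀, conjFun φ ∈ S₀) (hcoh : IsCoherent (↑S₀ : Set (L → ℂ)) {1}ᶜ τ)
    {χ₁ : L → ℂ} (hχ₁ : χ₁ ∈ S₀) (T : Finset (L → ℂ)) (hT : ↑T ⊆ S)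
    (hTc : ∀ φ ∈ T, conjFun φ ∈ T) (hdvd : ∀ χ ∈ T, d χ₁ ∣ d χ)
    (hineq : ∀ χ ∈ T, χ ∉ S₀ → (2 * d χ * d χ₁ : ℝ) <
      ∑ φ ∈ S₀ ∪ T.filter (fun φ => d φ < d χ), ((d φ : ℝ) ^ 2 / (n φ : ℝ))) :
    IsCoherent (↑(S₀ ∪ T) : Set (L → ℂ)) {1}ᶜ τ := by
  suffices H : ∀ (k : ℕ) (S₁ : Finset (L → ℂ)), (T \ S₁).card = k → S₀ ⊆ S₁ → S₁ ⊆ S₀ ∪ T →
      (∀ φ ∈ S₁, conjFun φ ∈ S₁) → IsCoherent (↑S₁ : Set (L → ℂ)) {1}ᶜ τ →
      IsCoherent (↑(S₀ ∪ T) : Set (L → ℂ)) {1}ᶜ τ from
    H _ S₀ rfl subset_rfl Finset.subset_union_left hS₀c hcoh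
  intro k
  induction k using Nat.strong_induction_on with
  | _ k ih =>
    intro S₁ hk h01 h1T hc1 hcoh1
    rcases (T \ S₁).eq_empty_or_nonempty with he | hne
    · have : S₁ = S₀ ∪ T := Finset.Subset.antisymm h1T
        (Finset.union_subset h01 (Finset.sdiff_eq_empty_iff_subset.mp he))
      rwa [← this]
    · obtain ⟨χ, hχ, hmin⟩ := Finset.exists_min_image (T \ S₁) d hne
      obtain ⟨hχT, hχ1⟩ := Finset.mem_sdiff.mp hχ
      have hχ2 : conjFun χ ∉ S₁ := fun h => hχ1 (by simpa [conjFun_conjFun] using hc1 _ h)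
      have hS₁S : (↑S₁ : Set (L → ℂ)) ⊆ S := fun φ hφ => by
        rcases Finset.mem_union.mp (h1T hφ) with h | h
        · exact hS₀ h
        · exact hT h
      have hlt : (2 * d χ * d χ₁ : ℝ) < ∑ φ ∈ S₁, ((d φ : ℝ) ^ 2 / (n φ : ℝ)) := by
        refine lt_of_lt_of_le (hineq χ hχT fun h => hχ1 (h01 h))
          (Finset.sum_le_sum_of_subset_of_nonneg ?_ fun _ _ _ => by positivity)
        intro φ hφ
        rcases Finset.mem_union.mp hφ with h | h
        · exact h01 h
        · obtain ⟨hφT, hlt⟩ := Finset.mem_filter.mp h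
          by_contra hno
          exact absurd (hmin φ (Finset.mem_sdiff.mpr ⟨hφT, hno⟩)) (not_le.mpr hlt)
      have hstep := S1516.result S τ R hS d n hd hn S₁ hS₁S hc1 hcoh1 χ (hT hχT) hχ1 hχ2 χ₁
        (h01 hχ₁) (hdvd χ hχT) hlt
      refine ih _ ?_ (insert χ (insert (conjFun χ) S₁)) rfl
        (h01.trans ((Finset.subset_insert _ _).trans (Finset.subset_insert _ _))) ?_ ?_ ?_
      · rw [← hk]
        refine Finset.card_lt_card (Finset.ssubset_iff_subset_ne.mpr
          ⟨Finset.sdiff_subset_sdiff subset_rfl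
            ((Finset.subset_insert _ _).trans (Finset.subset_insert _ _)), fun h => ?_⟩)
        have := h.ge hχ
        simp at this
      · exact Finset.insert_subset (Finset.mem_union_right _ hχT)
          (Finset.insert_subset (Finset.mem_union_right _ (hTc χ hχT)) h1T)
      · intro φ hφ
        simp only [Finset.mem_insert] at hφ ⊢
        rcases hφ with rfl | rfl | h
        · exact Or.inr (Or.inl rfl)
        · exact Or.inl (conjFun_conjFun _)
        · exact Or.inr (Or.inr (hc1 φ h))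
      · convert hstep using 1
        ext φ
        simp [or_comm, or_assoc, or_left_comm]

end Abstract

section Induced

universe u

variable {L : Type u} [Group L] [Fintype L] (K : Subgroup L) [K.Normal]

/-- The members of `inducedIrrAbove K A` come from these characters of `K`. -/
def AboveChar (A : Subgroup L) (θ : IrrCharacter K) : Prop :=
  (θ : K → ℂ) ≠ (fun _ => 1) ∧ ∀ a : K, (a : L) ∈ A → (θ : K → ℂ) a = (θ : K → ℂ) 1

theorem mem_above {A : Subgroup L} {φ : L → ℂ} :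
    φ ∈ inducedIrrAbove K A ↔ ∃ θ : IrrCharacter K, AboveChar K A θ ∧ φ = indFun K (θ : K → ℂ) :=
  ⟨fun ⟨θ, h1, h2, h3, h4⟩ => ⟨⟨θ, h1⟩, ⟨h2, h3⟩, h4⟩,
    fun ⟨θ, ⟨h2, h3⟩, h4⟩ => ⟨θ, θ.2, h2, h3, h4⟩⟩

theorem above_anti {A B : Subgroup L} (h : A ≤ B) : inducedIrrAbove K B ⊆ inducedIrrAbove K A :=
  fun _ ⟨θ, h1, h2, h3, h4⟩ => ⟨θ, h1, h2, fun a ha => h3 a (h ha), h4⟩

theorem above_subset (A : Subgroup L) : inducedIrrAbove K A ⊆ inducedIrrAbove K ⊥ :=
  above_anti K bot_le

omit [K.Normal] in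
theorem conjFun_indFun (θ : K → ℂ) :
    conjFun (indFun K θ) = indFun K (fun k => conj (θ k)) := by
  funext g
  simp only [conjFun, indFun, map_mul, map_inv₀, map_natCast, map_sum]
  congr 1
  refine Finset.sum_congr rfl fun x _ => ?_
  by_cases h : x⁻¹ * g * x ∈ K
  · rw [extendByZero_mem _ _ h, extendByZero_mem _ _ h]
  · rw [extendByZero_not_mem _ _ h, extendByZero_not_mem _ _ h, map_zero]

omit [K.Normal] in
theorem above_conj (A : Subgroup L) {φ : L → ℂ} (h : φ ∈ inducedIrrAbove K A) :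
    conjFun φ ∈ inducedIrrAbove K A := by
  obtain ⟨θ, h1, h2, h3, rfl⟩ := h
  refine ⟨fun k => conj (θ k), isIrrCharacter_conj h1, fun e => h2 (funext fun k => ?_),
    fun a ha => by show conj (θ a) = conj (θ 1); rw [h3 a ha], conjFun_indFun K θ⟩
  have := congrArg conj (congrFun e k)
  simpa using this

theorem above_finite (A : Subgroup L) : (inducedIrrAbove K A).Finite := by
  refine (Set.finite_range fun θ : IrrCharacter K => indFun K (θ : K → ℂ)).subset ?_
  intro φ hφ
  obtain ⟨θ, -, rfl⟩ := (mem_above K).mp hφ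
  exact ⟨θ, rfl⟩

/-- The members as a finite set. -/
noncomputable def aboveFinset (A : Subgroup L) : Finset (L → ℂ) := (above_finite K A).toFinset

theorem coe_aboveFinset (A : Subgroup L) :
    (↑(aboveFinset K A) : Set (L → ℂ)) = inducedIrrAbove K A :=
  Set.Finite.coe_toFinset _

theorem mem_aboveFinset {A : Subgroup L} {φ : L → ℂ} :
    φ ∈ aboveFinset K A ↔ φ ∈ inducedIrrAbove K A :=
  Set.Finite.mem_toFinset _

omit [K.Normal] in
theorem ind_degree {θ : K → ℂ} (hθ : IsIrrCharacter K θ) :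
    charDegree (indFun K θ) = K.index * charDegree θ :=
  charDegree_indFun K (isCharacter_of_isIrr hθ)

/-- Two irreducible characters inducing to the same character are conjugate. -/
theorem conj_of_indFun_eq {θ θ' : K → ℂ} (hθ : IsIrrCharacter K θ) (hθ' : IsIrrCharacter K θ')
    (h : indFun K θ = indFun K θ') : ∃ g : L, conjChar K g θ = θ' := by
  classical
  have := Fintype.ofFinite K
  by_contra hc
  push Not at hc
  have h1 : classInner (indFun K θ) (indFun K θ') = 0 := by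
    rw [classInner_indFun_right K _ (isClassFunction_indFun K θ), indFun_restrict_normal,
      classInner_smul_left, classInner_sum_left, Finset.sum_eq_zero fun x _ =>
        classInner_irr_ne (isIrrCharacter_conjChar K x hθ) hθ' (hc x), mul_zero]
  rw [h] at h1
  have h2 := congrFun (eq_zero_of_classInner_self _ h1) 1
  rw [indFun_one, Pi.zero_apply] at h2
  exact mul_ne_zero (Nat.cast_ne_zero.mpr Subgroup.index_ne_zero_of_finite) (irr_degree_ne_zero hθ') h2

theorem indFun_conjChar_eq {θ : K → ℂ} (g : L) : indFun K (conjChar K g θ) = indFun K θ := by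
  funext y
  by_cases hy : y ∈ K
  · rw [show y = ((⟨y, hy⟩ : K) : L) from rfl, indFun_apply_of_mem, indFun_apply_of_mem]
    congr 1
    refine Fintype.sum_equiv (Equiv.mulLeft g) _ _ fun x => ?_
    rw [Equiv.coe_mulLeft, conjChar_mul]
  · rw [indFun_apply_of_not_mem K _ hy, indFun_apply_of_not_mem K _ hy]

open scoped _root_.Classical in
/-- `Σ d(φ)²/n(φ)` over `φ` induced from a set of characters stable under conjugation. -/
theorem sum_sq_div (P : IrrCharacter K → Prop)
    (hP : ∀ (g : L) (θ : IrrCharacter K), P θ →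
      P ⟨conjChar K g (θ : K → ℂ), isIrrCharacter_conjChar K g θ.2⟩)
    (n : (L → ℂ) → ℕ)
    (hn : ∀ θ : IrrCharacter K, P θ → classInner (indFun K (θ : K → ℂ)) (indFun K (θ : K → ℂ)) =
      (n (indFun K (θ : K → ℂ)) : ℂ)) :
    ∑ φ ∈ (Finset.univ.filter P).image (fun θ : IrrCharacter K => indFun K (θ : K → ℂ)),
        ((charDegree φ : ℝ) ^ 2 / (n φ : ℝ)) =
      (K.index : ℝ) * ∑ θ ∈ Finset.univ.filter P, (charDegree (θ : K → ℂ) : ℝ) ^ 2 := by
  have := Fintype.ofFinite K
  rw [Finset.mul_sum, ← Finset.sum_fiberwise_of_maps_to (s := Finset.univ.filter P)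
    (t := (Finset.univ.filter P).image (fun θ : IrrCharacter K => indFun K (θ : K → ℂ)))
    (g := fun θ : IrrCharacter K => indFun K (θ : K → ℂ)) fun θ hθ => Finset.mem_image_of_mem _ hθ]
  refine Finset.sum_congr rfl fun φ hφ => ?_
  obtain ⟨θ, hθ, rfl⟩ := Finset.mem_image.mp hφ
  have hPθ := (Finset.mem_filter.mp hθ).2
  set T := inertia K (θ : K → ℂ) with hT
  have hfib : ((Finset.univ.filter P).filter fun η : IrrCharacter K =>
      indFun K (η : K → ℂ) = indFun K (θ : K → ℂ)).card = (orbit K (θ : K → ℂ)).card := by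
    refine Finset.card_bij (fun η _ => (η : K → ℂ)) (fun η hη => ?_)
      (fun a _ b _ h => Subtype.ext h) fun f hf => ?_
    · obtain ⟨g, hg⟩ := conj_of_indFun_eq K θ.2 η.2 (Finset.mem_filter.mp hη).2.symm
      exact (mem_orbit K).mpr ⟨g, hg⟩
    · obtain ⟨g, rfl⟩ := (mem_orbit K).mp hf
      exact ⟨⟨_, isIrrCharacter_conjChar K g θ.2⟩, Finset.mem_filter.mpr
        ⟨Finset.mem_filter.mpr ⟨Finset.mem_univ _, hP g θ hPθ⟩, indFun_conjChar_eq K g⟩, rfl⟩
  have hone : ∀ g : L, conjChar K g (θ : K → ℂ) 1 = (θ : K → ℂ) 1 := fun g => by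
    rw [conjChar_apply]; exact congrArg _ (Subtype.ext (by simp))
  have hcard : (orbit K (θ : K → ℂ)).card * Nat.card T = Nat.card L := by
    have h := congrFun (sum_conjChar_eq K (θ : K → ℂ)) 1
    have horb1 : ∀ ψ ∈ orbit K (θ : K → ℂ), ψ 1 = (θ : K → ℂ) 1 := fun ψ hψ => by
      obtain ⟨g, rfl⟩ := (mem_orbit K).mp hψ; exact hone g
    rw [Finset.sum_apply, Finset.sum_congr rfl fun x _ => hone x, Pi.smul_apply, Finset.sum_apply,
      Finset.sum_congr rfl horb1,
      Finset.sum_const, Finset.sum_const, nsmul_eq_mul, nsmul_eq_mul, smul_eq_mul, ← mul_assoc,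
      Finset.card_univ, ← Nat.card_eq_fintype_card] at h
    have h' := mul_right_cancel₀ (irr_degree_ne_zero θ.2) h
    rw [mul_comm] at h'
    exact_mod_cast h'.symm
  have hterm : ∀ η ∈ (Finset.univ.filter P).filter fun η : IrrCharacter K =>
      indFun K (η : K → ℂ) = indFun K (θ : K → ℂ),
      (charDegree (η : K → ℂ) : ℝ) ^ 2 = (charDegree (θ : K → ℂ) : ℝ) ^ 2 := by
    intro η hη
    have h1 := congrArg charDegree (Finset.mem_filter.mp hη).2
    rw [ind_degree K η.2, ind_degree K θ.2] at h1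
    rw [Nat.eq_of_mul_eq_mul_left (Nat.pos_of_ne_zero Subgroup.index_ne_zero_of_finite) h1]
  rw [ind_degree K θ.2, ← Finset.mul_sum, Finset.sum_congr rfl hterm, Finset.sum_const, hfib,
    nsmul_eq_mul]
  have hn' : (n (indFun K (θ : K → ℂ)) : ℝ) * Nat.card K = Nat.card T := by
    have h1 := hn θ hPθ
    rw [classInner_indFun_self K θ.2, inv_mul_eq_iff_eq_mul₀ (card_ne_zero_complex K)] at h1
    rw [mul_comm]
    exact_mod_cast h1.symm
  have hLK : (Nat.card L : ℝ) = K.index * Nat.card K := by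
    exact_mod_cast (Subgroup.index_mul_card K).symm
  have hcard' : ((orbit K (θ : K → ℂ)).card : ℝ) * Nat.card T = Nat.card L := by exact_mod_cast hcard
  rw [← hn', hLK] at hcard'
  have hKpos : (0 : ℝ) < Nat.card K := by exact_mod_cast Nat.card_pos
  have h2 : ((orbit K (θ : K → ℂ)).card : ℝ) * n (indFun K (θ : K → ℂ)) = K.index :=
    mul_right_cancel₀ hKpos.ne' (by rw [mul_assoc]; exact hcard')
  have hidx : (0 : ℝ) < K.index := by
    exact_mod_cast Nat.pos_of_ne_zero (Subgroup.index_ne_zero_of_finite (H := K))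
  have hn0 : (n (indFun K (θ : K → ℂ)) : ℝ) ≠ 0 := by
    intro h0
    rw [h0, mul_zero] at h2
    exact hidx.ne h2
  rw [Nat.cast_mul, div_eq_iff hn0, ← h2]
  ring

open scoped _root_.Classical in
/-- The squared degrees of the characters above `A`. -/
theorem sum_above (A : Subgroup L) [A.Normal] (hAK : A ≤ K) :
    ∑ θ ∈ Finset.univ.filter (AboveChar K A), (charDegree (θ : K → ℂ) : ℝ) ^ 2 =
      (A.relIndex K : ℝ) - 1 := by
  have := Fintype.ofFinite K
  haveI : (A.subgroupOf K).Normal := ⟨fun x hx y =>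
    (inferInstance : A.Normal).conj_mem _ hx (y : L)⟩
  have h := CharKernel.sum_trivialOn_degree_mul (A.subgroupOf K) (1 : K)
  rw [if_pos (Subgroup.one_mem _)] at h
  let one : IrrCharacter K := ⟨fun _ => 1, isIrrCharacter_one⟩
  have hfilter : Finset.univ.filter (AboveChar K A) =
      (Finset.univ.filter fun θ : IrrCharacter K =>
        ∀ a ∈ A.subgroupOf K, (θ : K → ℂ) a = (θ : K → ℂ) 1).erase one := by
    ext θ
    simp only [Finset.mem_filter, Finset.mem_univ, true_and, Finset.mem_erase]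
    exact ⟨fun ⟨h1, h2⟩ => ⟨fun e => h1 (congrArg Subtype.val e), fun a ha => h2 a ha⟩,
      fun ⟨h1, h2⟩ => ⟨fun e => h1 (Subtype.ext e), fun a ha => h2 a ha⟩⟩
  have hmem : one ∈ Finset.univ.filter fun θ : IrrCharacter K =>
      ∀ a ∈ A.subgroupOf K, (θ : K → ℂ) a = (θ : K → ℂ) 1 :=
    Finset.mem_filter.mpr ⟨Finset.mem_univ _, fun _ _ => rfl⟩
  rw [hfilter, Finset.sum_erase_eq_sub hmem]
  have h1 : (charDegree (one : K → ℂ) : ℝ) = 1 := by
    rw [show (one : K → ℂ) = fun _ => 1 from rfl, charDegree_one, Nat.cast_one]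
  rw [h1, one_pow, sub_left_inj, Subgroup.relIndex]
  rw [Finset.sum_congr rfl (g := fun θ : IrrCharacter K =>
    (((charDegree (θ : K → ℂ)) ^ 2 : ℕ) : ℂ)) fun θ _ => by
      rw [apply_one_eq_charDegree (isCharacter_of_isIrr θ.2)]; push_cast; ring] at h
  norm_cast at h ⊢
  convert h using 2
  ext θ
  simp

/-- A subgroup properly below a solvable `K` has a nontrivial linear character above it. -/
theorem exists_linear_above (hsolv : Group.IsSolvable K) (A : Subgroup L) [A.Normal] (hAK : A < K) :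
    ∃ θ : IrrCharacter K, AboveChar K A θ ∧ charDegree (θ : K → ℂ) = 1 := by
  classical
  haveI : (A.subgroupOf K).Normal := ⟨fun x hx y =>
    (inferInstance : A.Normal).conj_mem _ hx (y : L)⟩
  haveI : Nontrivial (K ⧸ A.subgroupOf K) := by
    rw [QuotientGroup.nontrivial_iff]
    exact fun h => hAK.not_ge (Subgroup.subgroupOf_eq_top.mp h)
  haveI : Group.IsSolvable (K ⧸ A.subgroupOf K) :=
    Group.isSolvable_of_surjective (f := QuotientGroup.mk' _) (QuotientGroup.mk'_surjective _)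
  have h1 : (commutator (K ⧸ A.subgroupOf K)).index ≠ 1 := fun e =>
    (Group.IsSolvable.commutator_lt_top_of_nontrivial (K ⧸ A.subgroupOf K)).ne
      (Subgroup.index_eq_one.mp e)
  rw [← card_charDegree_one] at h1
  by_contra hcon
  push Not at hcon
  refine h1 (Nat.card_eq_one_iff_exists.mpr
    ⟨⟨⟨_, isIrrCharacter_one⟩, charDegree_one⟩, fun η => ?_⟩)
  by_contra hne
  let θ : IrrCharacter K := (CharKernel.inflateEquiv (A.subgroupOf K) η.1).1
  refine hcon θ ⟨fun h => hne (Subtype.ext (Subtype.ext (funext fun q => ?_))), fun a ha => ?_⟩ ?_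
  · obtain ⟨k, rfl⟩ := QuotientGroup.mk_surjective q
    have := congrFun h k
    rwa [CharKernel.inflateEquiv_apply] at this
  · exact (CharKernel.inflateEquiv (A.subgroupOf K) η.1).2 a ha
  · refine charDegree_eq_of_apply_one ?_
    rw [CharKernel.inflateEquiv_apply, QuotientGroup.mk_one,
      apply_one_eq_charDegree (isCharacter_of_isIrr η.1.2)]
    exact congrArg Nat.cast η.2

end Induced

end Cfsg.Agent.Lib.Dade
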