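import Cfsg.Agent.S1528
import Cfsg.Agent.Lib.OddPartition.Local
import Cfsg.Agent.Lib.Dade.CoherenceExt
import Mathlib.Tactic

/-!
The characters of a Frobenius group not trivial on the kernel, and induction from a Frobenius TI
normaliser on their combinations vanishing at the identity.
-/

set_option autoImplicit false

open scoped ComplexConjugate

namespace Cfsg.Agent.Lib.Dade

open Cfsg Cfsg.Agent.Lib.Char

universe u

section Kernel

variable {N : Type u} [Group N] [Fintype N] {H : Subgroup N} [H.Normal]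

/-- The irreducible characters not trivial on `H`. -/
def relChars (H : Subgroup N) : Set (N → ℂ) :=
  {χ | IsIrrCharacter N χ ∧ ∃ h ∈ H, χ h ≠ χ 1}

variable (hC : ∀ h ∈ H, h ≠ 1 → Subgroup.centralizer ({h} : Set N) ≤ H)
include hC

theorem inertia_kernel {θ : H → ℂ} (hθ : IsIrrCharacter H θ) (h1 : θ ≠ fun _ => 1) :
    inertia H θ = H := by
  have := Fintype.ofFinite H
  exact le_antisymm (fun g hg => by
    by_contra hgN
    exact h1 (S1528.eq_one_of_fixed H hC hgN hθ hg)) (le_inertia H (isClassFunction_of_isIrr hθ))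

theorem ind_kernel_irr {θ : H → ℂ} (hθ : IsIrrCharacter H θ) (h1 : θ ≠ fun _ => 1) :
    IsIrrCharacter N (indFun H θ) := by
  have := Fintype.ofFinite H
  exact isIrrCharacter_indFun H hθ (inertia_kernel hC hθ h1)

theorem ind_mem_relChars {θ : H → ℂ} (hθ : IsIrrCharacter H θ) (h1 : θ ≠ fun _ => 1) :
    indFun H θ ∈ relChars H := by
  have := Fintype.ofFinite H
  refine ⟨ind_kernel_irr hC hθ h1, ?_⟩
  by_contra hc
  push Not at hc
  have hirr := ind_kernel_irr hC hθ h1
  have h := classInner_indFun_right H θ (isClassFunction_of_isIrr hirr)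
  rw [show (fun n : H => indFun H θ n) = indFun H θ 1 • fun _ => (1 : ℂ) from funext fun n => by
      rw [Pi.smul_apply, smul_eq_mul, mul_one]; exact hc n n.2,
    classInner_smul_left, classInner_irr_ne isIrrCharacter_one hθ (Ne.symm h1), mul_zero,
    classInner_irr_self hirr] at h
  exact one_ne_zero h

theorem exists_of_mem_relChars {χ : N → ℂ} (h : χ ∈ relChars H) :
    ∃ θ : H → ℂ, IsIrrCharacter H θ ∧ θ ≠ (fun _ => 1) ∧ χ = indFun H θ := by
  have := Fintype.ofFinite H
  obtain ⟨hχ, hker⟩ := h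
  obtain ⟨φ, hφ, rfl⟩ := S1528.result H hC χ hχ hker
  refine ⟨φ, hφ, fun h1 => ?_, rfl⟩
  obtain ⟨x, hx, hne⟩ := hker
  refine hne ?_
  rw [h1, show x = ((⟨x, hx⟩ : H) : N) from rfl, indFun_apply_of_mem,
    show (1 : N) = ((1 : H) : N) from rfl, indFun_apply_of_mem]
  rfl

theorem relChars_off {χ : N → ℂ} (h : χ ∈ relChars H) {x : N} (hx : x ∉ H) : χ x = 0 := by
  obtain ⟨θ, -, -, rfl⟩ := exists_of_mem_relChars hC h
  exact indFun_apply_of_not_mem H θ hx

theorem zspan_relChars_off {α : N → ℂ} (h : α ∈ zspan (relChars H)) :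
    IsClassFunction N α ∧ IsGeneralizedCharacter N α ∧ ∀ x ∉ H, α x = 0 := by
  induction h using Submodule.span_induction with
  | mem y hy =>
    exact ⟨isClassFunction_of_isIrr hy.1, generalized_of_isCharacter (isCharacter_of_isIrr hy.1),
      fun x hx => relChars_off hC hy hx⟩
  | zero => exact ⟨fun _ _ => rfl, generalized_zero, fun _ _ => rfl⟩
  | add y z _ _ hy hz =>
    exact ⟨isClassFunction_add hy.1 hz.1, generalized_add hy.2.1 hz.2.1, fun x hx => by
      rw [Pi.add_apply, hy.2.2 x hx, hz.2.2 x hx, add_zero]⟩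
  | smul n y _ hy =>
    refine ⟨?_, generalized_zsmul hy.2.1 n, fun x hx => by rw [Pi.smul_apply, hy.2.2 x hx, smul_zero]⟩
    rw [← Int.cast_smul_eq_zsmul ℂ]
    exact isClassFunction_smul _ hy.1

end Kernel

section Induction

variable {G : Type u} [Group G] [Fintype G] {L K : Subgroup G} [Fintype L]
  (hF : OddPartition.IsFrobTI L K) [(K.subgroupOf L).Normal]

include hF

omit [Fintype G] [Fintype L] in
theorem kernel_centralizer : ∀ h ∈ K.subgroupOf L, h ≠ 1 →
    Subgroup.centralizer ({h} : Set L) ≤ K.subgroupOf L := by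
  intro h hh h1 c hc
  refine hF.centralizer_le h hh (fun e => h1 (Subtype.ext e)) ?_
  exact Subgroup.mem_centralizer_singleton_iff.mpr
    (congrArg Subtype.val (Subgroup.mem_centralizer_singleton_iff.mp hc))

theorem support_zspanOn {α : L → ℂ} (h : α ∈ zspanOn (relChars (K.subgroupOf L)) {1}ᶜ) :
    ∀ x : L, (x : G) ∉ {y : G | y ∈ K ∧ y ≠ 1} → α x = 0 := by
  intro x hx
  obtain ⟨h1, h2⟩ := mem_zspanOn.mp h
  by_cases hxK : (x : G) ∈ K
  · have : x = 1 := Subtype.ext (by_contra fun e => hx ⟨hxK, e⟩)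
    rw [this, h2]
  · exact (zspan_relChars_off (kernel_centralizer hF) h1).2.2 x hxK

theorem indFun_apply_kernel {α : L → ℂ} (h : α ∈ zspanOn (relChars (K.subgroupOf L)) {1}ᶜ)
    {x : L} (hx : (x : G) ∈ K ∧ (x : G) ≠ 1) : indFun L α x = α x := by
  have hc := (zspan_relChars_off (kernel_centralizer hF) (mem_zspanOn.mp h).1).1
  rw [indFun_eq_dade hF.dade hc (support_zspanOn hF h),
    dade_apply hF.dade hc (g := (x : G)) (x := 1) hx (Subgroup.one_mem _) (by group)]

theorem indFun_isometry :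
    IsLinearIsometryOn (zspanOn (relChars (K.subgroupOf L)) {1}ᶜ) (fun α => indFun L α) ∧
      ∀ α ∈ zspanOn (relChars (K.subgroupOf L)) {1}ᶜ, indFun L α 1 = 0 := by
  refine ⟨⟨fun α _ β _ => indFun_add L α β, fun α _ n => ?_, fun α hα β hβ => ?_, fun α hα => ?_⟩,
    fun α hα => ?_⟩
  · show indFun L (n • α) = n • indFun L α
    rw [← Int.cast_smul_eq_zsmul ℂ, ← Int.cast_smul_eq_zsmul ℂ, indFun_smul]
  · rw [classInner_indFun L α (isClassFunction_indFun L β), classInner, classInner]
    congr 1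
    refine Finset.sum_congr rfl fun x _ => ?_
    by_cases hx : (x : G) ∈ K ∧ (x : G) ≠ 1
    · rw [indFun_apply_kernel hF hβ hx]
    · rw [support_zspanOn hF hα x hx, zero_mul, zero_mul]
  · exact Involution.isGeneralized_indFun _
      (zspan_relChars_off (kernel_centralizer hF) (mem_zspanOn.mp hα).1).2.1
  · rw [indFun_one, (mem_zspanOn.mp hα).2, mul_zero]

end Induction

end Cfsg.Agent.Lib.Dade
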