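import Cfsg.Agent.Lib.Dade.CentralDegree
import Mathlib.GroupTheory.Nilpotent

/-!
Coherence descends through a nilpotent section.
-/

set_option autoImplicit false

namespace Cfsg.Agent.Lib.Dade

open Cfsg

universe u

variable {L : Type u} [Group L]

/-- A proper step below `A` absorbs the commutator with `H` when `H / M` is nilpotent. -/
theorem not_le_commutator_sup {H M A B : Subgroup L} [B.Normal] [(M.subgroupOf H).Normal]
    (hnil : Group.IsNilpotent (H ⧸ M.subgroupOf H)) (hMB : M ≤ B) (hAH : A ≤ H) (hAB : ¬ A ≤ B) :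
    ¬ A ≤ ⁅A, H⁆ ⊔ B := by
  intro hle
  let f := QuotientGroup.mk' B
  have hfB : B.map f = ⊥ := by
    rw [Subgroup.map_eq_bot_iff, QuotientGroup.ker_mk']
  have hstep : A.map f ≤ ⁅A.map f, H.map f⁆ := by
    have := Subgroup.map_mono (f := f) hle
    rwa [Subgroup.map_sup, hfB, sup_bot_eq, Subgroup.map_commutator] at this
  have hind : ∀ n, A.map f ≤ (H.lowerCentralSeries n).map f := by
    intro n
    induction n with
    | zero => rw [Subgroup.lowerCentralSeries_zero]; exact Subgroup.map_mono hAH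
    | succ n ih =>
      rw [Subgroup.lowerCentralSeries_succ, Subgroup.map_commutator]
      exact hstep.trans (Subgroup.commutator_mono ih le_rfl)
  obtain ⟨n, hn⟩ := Subgroup.nilpotent_iff_lowerCentralSeries.mp hnil
  have hM : H.lowerCentralSeries n ≤ M := by
    rw [← Subgroup.top_subtype_lowerCentralSeries, Subgroup.map_le_iff_le_comap]
    intro x hx
    have h1 : QuotientGroup.mk' (M.subgroupOf H) x ∈
        ((⊤ : Subgroup H).lowerCentralSeries n).map (QuotientGroup.mk' (M.subgroupOf H)) :=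
      Subgroup.mem_map_of_mem _ hx
    have h2 := Subgroup.lowerCentralSeries.map (QuotientGroup.mk' (M.subgroupOf H)) n h1
    rw [hn, Subgroup.mem_bot, QuotientGroup.mk'_apply, QuotientGroup.eq_one_iff] at h2
    exact h2
  refine hAB ?_
  have h3 : A.map f ≤ ⊥ := ((hind n).trans (Subgroup.map_mono (hM.trans hMB))).trans hfB.le
  rwa [le_bot_iff, Subgroup.map_eq_bot_iff, QuotientGroup.ker_mk'] at h3

variable [Fintype L]

/-- Coherence descends through a nilpotent section whose index is large against `[L : K]²`. -/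
theorem descends_nilpotent {G : Type*} [Group G] [Fintype G] {K : Subgroup L} [K.Normal]
    (hsolv : Group.IsSolvable K) {τ : (L → ℂ) → (G → ℂ)} {R : (L → ℂ) → Finset (G → ℂ)}
    (hS : IsCoherenceSystem (inducedIrrAbove K ⊥) τ R) {M H₁ H : Subgroup L} [M.Normal] [H₁.Normal]
    [H.Normal] (hMH₁ : M ≤ H₁) (hH₁H : H₁ ≤ H) (hHK : H ≤ K) [(M.subgroupOf H).Normal]
    (hnil : Group.IsNilpotent (H ⧸ M.subgroupOf H))
    (hcoh : IsCoherent (inducedIrrAbove K H₁) {1}ᶜ τ)
    (hbig : 4 * K.index ^ 2 + 1 < H₁.relIndex H) :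
    IsCoherent (inducedIrrAbove K M) {1}ᶜ τ := by
  classical
  have hH₁K : H₁ < K := by
    refine lt_of_le_of_ne (hH₁H.trans hHK) fun h => ?_
    rw [h, Subgroup.relIndex_eq_one.mpr hHK] at hbig
    omega
  let P : Subgroup L → Prop := fun A =>
    A.Normal ∧ M ≤ A ∧ A ≤ H₁ ∧ IsCoherent (inducedIrrAbove K A) {1}ᶜ τ
  obtain ⟨A, -, ⟨hAn, hMA, hAH₁, hA⟩, hAmin⟩ :=
    exists_minimal_le_of_wellFoundedLT P H₁ ⟨inferInstance, hMH₁, le_rfl, hcoh⟩
  rcases hMA.eq_or_lt with rfl | hlt
  · exact hA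
  · exfalso
    let Q : Subgroup L → Prop := fun B => B.Normal ∧ M ≤ B ∧ B < A
    obtain ⟨B, -, ⟨hBn, hMB, hBA⟩, hBmax⟩ :=
      exists_maximal_ge_of_wellFoundedGT Q M ⟨inferInstance, le_rfl, hlt⟩
    haveI := hAn
    haveI := hBn
    have hAH : A ≤ H := hAH₁.trans hH₁H
    have hAK : A < K := lt_of_le_of_lt hAH₁ hH₁K
    have hcomm : ⁅A, H⁆ ≤ B := by
      have hAA : ⁅A, H⁆ ⊔ B ≤ A := sup_le (Subgroup.commutator_le_left A H) hBA.le
      by_contra hno
      have hne : ⁅A, H⁆ ⊔ B ≠ A := fun he =>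
        not_le_commutator_sup hnil hMB hAH hBA.not_ge (le_of_eq he.symm)
      exact hno (le_sup_left.trans (hBmax (y := ⁅A, H⁆ ⊔ B)
        ⟨inferInstance, hMB.trans le_sup_right, lt_of_le_of_ne hAA hne⟩ le_sup_right))
    have hB : IsCoherent (inducedIrrAbove K B) {1}ᶜ τ := by
      refine descends_central_step hsolv hS A B H A hAK (hBA.trans hAK) hAH hHK
        (fun x hx y hy => hcomm (Subgroup.commutator_mem_commutator hx hy)) hA ?_
      have h1 : A.relIndex H * H.relIndex K = A.relIndex K := Subgroup.relIndex_mul_relIndex _ _ _ hAH hHK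
      have h2 : H.relIndex K * K.index = H.index := Subgroup.relIndex_mul_index hHK
      have h3 : A.relIndex H₁ * H₁.relIndex H = A.relIndex H := Subgroup.relIndex_mul_relIndex _ _ _ hAH₁ hH₁H
      rw [← h1, ← h2]
      generalize hk : H.relIndex K = k at *
      generalize ha : A.relIndex H = a at *
      have hk0 : 1 ≤ k := by
        rw [← hk]; exact Nat.pos_of_ne_zero (fun h => Subgroup.index_ne_zero_of_finite (H := H.subgroupOf K) h)
      have ha1 : 4 * K.index ^ 2 + 2 ≤ a := by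
        rw [← h3]
        have : 1 ≤ A.relIndex H₁ :=
          Nat.pos_of_ne_zero (fun h => Subgroup.index_ne_zero_of_finite (H := A.subgroupOf H₁) h)
        exact le_trans hbig (Nat.le_mul_of_pos_left _ this)
      obtain ⟨m, hm⟩ : ∃ m, a * k = m + 1 := ⟨a * k - 1, by
        have : 0 < a * k := Nat.mul_pos (by omega) hk0
        omega⟩
      rw [hm, Nat.add_sub_cancel]
      nlinarith [Nat.mul_le_mul_left (k * k * a) ha1, Nat.mul_le_mul_left (k * a) hk0]
    exact hBA.not_ge (hAmin (y := B) ⟨hBn, hMB, hBA.le.trans hAH₁, hB⟩ hBA.le)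

end Cfsg.Agent.Lib.Dade
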