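import Cfsg.Agent.Lib.Dade.FrobeniusQuot

/-!
Coherence for the characters above `M` when `K / M` is nilpotent and `L / K` acts without fixed
points on the largest abelian quotient.
-/

set_option autoImplicit false

open scoped commutatorElement

namespace Cfsg.Agent.Lib.Dade

open Cfsg Cfsg.Agent.Lib.Char

universe u

section Nilpotent

variable {Q : Type u} [Group Q] [Finite Q]

/-- A nilpotent group whose commutator quotient is a `p`-group is a `p`-group. -/
theorem card_prime_pow_of_commutator_index (hQ : Group.IsNilpotent Q) {p r : ℕ} (hp : p.Prime)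
    (h : (commutator Q).index = p ^ r) : ∃ m, Nat.card Q = p ^ m := by
  haveI := Fact.mk hp
  obtain ⟨P⟩ : Nonempty (Sylow p Q) := inferInstance
  have h1 : ((P : Subgroup Q) ⊔ commutator Q).index ∣ p ^ r :=
    h ▸ Subgroup.index_dvd_of_le le_sup_right
  obtain ⟨i, -, hi⟩ := (Nat.dvd_prime_pow hp).mp h1
  have h2 : ((P : Subgroup Q) ⊔ commutator Q).index ∣ (P : Subgroup Q).index :=
    Subgroup.index_dvd_of_le le_sup_left
  have hi0 : i = 0 := by
    by_contra hne
    exact P.not_dvd_index ((dvd_pow_self p hne).trans (hi ▸ h2))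
  rw [hi0, pow_zero] at hi
  have hP := eq_top_of_sup_commutator_eq_top hQ (Subgroup.index_eq_one.mp hi)
  obtain ⟨m, hm⟩ := (IsPGroup.iff_card (p := p)).mp P.isPGroup'
  exact ⟨m, by rw [← hm, hP, Subgroup.card_top]⟩

/-- A nilpotent group whose commutator quotient has prime order is commutative. -/
theorem commutator_eq_bot_of_prime_index (hQ : Group.IsNilpotent Q)
    (h : (commutator Q).index.Prime) : commutator Q = ⊥ := by
  obtain ⟨x, hx⟩ : ∃ x, x ∉ commutator Q := by
    by_contra hno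
    push Not at hno
    exact h.ne_one (Subgroup.index_eq_one.mpr (eq_top_iff.mpr fun x _ => hno x))
  have hlt : commutator Q < Subgroup.zpowers x ⊔ commutator Q :=
    lt_of_le_of_ne le_sup_right fun e => hx (by
      rw [e]; exact Subgroup.mem_sup_left (Subgroup.mem_zpowers x))
  have hidx : (Subgroup.zpowers x ⊔ commutator Q).index = 1 := by
    rcases (Nat.dvd_prime h).mp (Subgroup.index_dvd_of_le le_sup_right) with h1 | h1
    · exact h1
    · exact absurd h1 (Subgroup.index_strictAnti hlt).ne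
  have htop := eq_top_of_sup_commutator_eq_top hQ (Subgroup.index_eq_one.mp hidx)
  rw [commutator_def, eq_bot_iff, Subgroup.commutator_le]
  intro a _ b _
  obtain ⟨i, rfl⟩ := Subgroup.mem_zpowers_iff.mp (htop.ge (Subgroup.mem_top a))
  obtain ⟨j, rfl⟩ := Subgroup.mem_zpowers_iff.mp (htop.ge (Subgroup.mem_top b))
  rw [Subgroup.mem_bot, commutatorElement_eq_one_iff_mul_comm]
  exact ((Commute.refl x).zpow_zpow i j).eq

end Nilpotent

section Between

variable {L : Type u} [Group L] [Finite L] {K H₁ : Subgroup L} [K.Normal] [H₁.Normal]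

/-- A normal subgroup strictly between `H₁` and `K` forces a large index. -/
theorem big_of_between (hodd : Odd (Nat.card L))
    (habel : ∀ x ∈ K, ∀ y ∈ K, x * y * x⁻¹ * y⁻¹ ∈ H₁)
    (hfrob : ∀ k ∈ K, k ∉ H₁ → ∀ x : L, x * k * x⁻¹ * k⁻¹ ∈ H₁ → x ∈ K)
    {N : Subgroup L} [N.Normal] (h1 : H₁ < N) (h2 : N < K) :
    4 * K.index ^ 2 + 1 < H₁.relIndex K := by
  have hodd' : ∀ A B : Subgroup L, Odd (A.relIndex B) := fun A B =>
    hodd.of_dvd_nat ((Subgroup.index_dvd_card _).trans (Subgroup.card_subgroup_dvd_card B))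
  have hepos : 0 < K.index := Nat.pos_of_ne_zero Subgroup.index_ne_zero_of_finite
  have heodd : Odd K.index := hodd.of_dvd_nat (Subgroup.index_dvd_card K)
  have hgt : ∀ {A B : Subgroup L}, A < B → 1 < A.relIndex B := by
    intro A B hAB
    have h0 : A.relIndex B ≠ 0 := Subgroup.index_ne_zero_of_finite (H := A.subgroupOf B)
    have h1' : A.relIndex B ≠ 1 := fun e => hAB.not_ge (Subgroup.relIndex_eq_one.mp e)
    omega
  have ha := dvd_section_sub_one h1.le h2.le habel hfrob
  have hc := dvd_section_sub_one (h1.le.trans h2.le) le_rfl habel hfrob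
  have hmul : H₁.relIndex N * N.relIndex K = H₁.relIndex K :=
    Subgroup.relIndex_mul_relIndex _ _ _ h1.le h2.le
  have hb : K.index ∣ N.relIndex K - 1 := by
    rw [← Nat.modEq_iff_dvd' (hgt h2).le]
    have ha' := (Nat.modEq_iff_dvd' (hgt h1).le).mpr ha
    have hc' := (Nat.modEq_iff_dvd' (hgt (h1.trans h2)).le).mpr hc
    rw [← hmul] at hc'
    have := hc'.trans (ha'.symm.mul_right (N.relIndex K))
    rwa [one_mul] at this
  have hA := two_mul_add_one_le heodd (hodd' _ _) (hgt h1) ha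
  have hB := two_mul_add_one_le heodd (hodd' _ _) (hgt h2) hb
  rw [← hmul]
  nlinarith [Nat.mul_le_mul hA hB]

/-- An abelian section that is not of prime power order has a proper nontrivial part. -/
theorem exists_between_of_not_prime_pow (habel : ∀ x ∈ K, ∀ y ∈ K, x * y * x⁻¹ * y⁻¹ ∈ H₁)
    (hH₁K : H₁ < K) (hnp : ¬ ∃ p r : ℕ, p.Prime ∧ H₁.relIndex K = p ^ r) :
    ∃ N : Subgroup L, N.Normal ∧ H₁ < N ∧ N < K := by
  classical
  let π := QuotientGroup.mk' H₁
  have hker : π.ker = H₁ := QuotientGroup.ker_mk' H₁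
  have hcard : Nat.card (K.map π) = H₁.relIndex K := by rw [← Subgroup.relIndex_ker, hker]
  have h0 : H₁.relIndex K ≠ 0 := Subgroup.index_ne_zero_of_finite (H := H₁.subgroupOf K)
  have h1 : H₁.relIndex K ≠ 1 := fun e => hH₁K.not_ge (Subgroup.relIndex_eq_one.mp e)
  obtain ⟨p, hp, hpd⟩ := Nat.exists_prime_and_dvd h1
  set q := p ^ (H₁.relIndex K).factorization p with hq
  have hcomm : ∀ x ∈ K, ∀ y ∈ K, Commute (π x) (π y) := fun x hx y hy => by
    rw [← commutatorElement_eq_one_iff_commute, ← map_commutatorElement]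
    exact (QuotientGroup.eq_one_iff _).mpr (habel x hx y hy)
  let N : Subgroup L :=
    { carrier := {x | x ∈ K ∧ π x ^ q = 1}
      one_mem' := ⟨K.one_mem, by rw [map_one, one_pow]⟩
      mul_mem' := fun {a b} ha hb => ⟨K.mul_mem ha.1 hb.1, by
        rw [map_mul, (hcomm a ha.1 b hb.1).mul_pow, ha.2, hb.2, one_mul]⟩
      inv_mem' := fun {a} ha => ⟨K.inv_mem ha.1, by rw [map_inv, inv_pow, ha.2, inv_one]⟩ }
  have hmemN : ∀ x, x ∈ N ↔ x ∈ K ∧ π x ^ q = 1 := fun x => Iff.rfl
  refine ⟨N, ⟨fun x hx g => (hmemN _).mpr ⟨(inferInstance : K.Normal).conj_mem x hx.1 g, by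
    rw [map_mul, map_mul, map_inv, conj_pow, hx.2, mul_one, mul_inv_cancel]⟩⟩,
    lt_of_le_of_ne (fun x hx => (hmemN x).mpr ⟨hH₁K.le hx, ?_⟩) ?_, lt_of_le_of_ne (fun x hx => hx.1) ?_⟩
  · rw [show π x = 1 from (QuotientGroup.eq_one_iff x).mpr hx, one_pow]
  · intro he
    haveI := Fact.mk hp
    obtain ⟨⟨y, hy⟩, hord⟩ := exists_prime_orderOf_dvd_card' (G := K.map π) p (hcard.symm ▸ hpd)
    obtain ⟨x, hx, rfl⟩ := hy
    replace hord : orderOf (π x) = p := (Subgroup.orderOf_coe _).trans hord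
    have hxN : x ∈ N := (hmemN x).mpr ⟨hx, orderOf_dvd_iff_pow_eq_one.mp (hord.symm ▸
      dvd_pow_self p (hp.factorization_pos_of_dvd h0 hpd).ne')⟩
    rw [← he] at hxN
    have : π x = 1 := (QuotientGroup.eq_one_iff x).mpr hxN
    rw [this, orderOf_one] at hord
    exact hp.ne_one hord.symm
  · intro he
    obtain ⟨l, hl, hld⟩ := Nat.exists_prime_and_dvd (n := H₁.relIndex K / q) (fun hone => by
      refine hnp ⟨p, (H₁.relIndex K).factorization p, hp, ?_⟩
      exact (Nat.eq_mul_of_div_eq_right (Nat.ordProj_dvd _ _) hone).trans (mul_one _))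
    haveI := Fact.mk hl
    obtain ⟨⟨y, hy⟩, hord⟩ := exists_prime_orderOf_dvd_card' (G := K.map π) l
      (hcard.symm ▸ hld.trans (Nat.div_dvd_of_dvd (Nat.ordProj_dvd _ p)))
    obtain ⟨x, hx, rfl⟩ := hy
    replace hord : orderOf (π x) = l := (Subgroup.orderOf_coe _).trans hord
    replace hx : x ∈ N := he.ge hx
    have h2 : l ∣ q := hord ▸ orderOf_dvd_of_pow_eq_one ((hmemN x).mp hx).2
    have h3 : l = p := (Nat.prime_dvd_prime_iff_eq hl hp).mp (hl.dvd_of_dvd_pow h2)
    subst h3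
    exact Nat.not_dvd_ordCompl hp h0 hld

end Between

section Main

variable {L : Type u} [Group L] [Fintype L] {G : Type*} [Group G] [Fintype G] {K : Subgroup L}
  [K.Normal]

/-- The five sufficient conditions. -/
theorem coherent_of_good (hsolv : Group.IsSolvable K) {τ : (L → ℂ) → (G → ℂ)}
    {R : (L → ℂ) → Finset (G → ℂ)} (hS : IsCoherenceSystem (inducedIrrAbove K ⊥) τ R)
    (hodd : Odd (Nat.card L)) {M : Subgroup L} [M.Normal] (hMK : M ≤ K) [(M.subgroupOf K).Normal]
    (hnil : Group.IsNilpotent (K ⧸ M.subgroupOf K)) {H₁ : Subgroup L} (hH₁ : H₁ = ⁅K, K⁆ ⊔ M)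
    (hH₁K : H₁ < K)
    (hfrob : ∀ k ∈ K, k ∉ H₁ → ∀ x : L, x * k * x⁻¹ * k⁻¹ ∈ H₁ → x ∈ K)
    (hgood : (∃ N : Subgroup L, N.Normal ∧ H₁ < N ∧ N < K) ∨
      4 * K.index ^ 2 + 1 < H₁.relIndex K ∨ (¬ ∃ p m : ℕ, p.Prime ∧ M.relIndex K = p ^ m) ∨
      ⁅K, K⁆ ≤ M ∨ (∃ p m : ℕ, p.Prime ∧ M.relIndex K = p ^ m ∧ K.index ∣ p - 1)) :
    IsCoherent (inducedIrrAbove K M) {1}ᶜ τ := by
  haveI hH₁n : H₁.Normal := by rw [hH₁]; infer_instance
  have habel : ∀ x ∈ K, ∀ y ∈ K, x * y * x⁻¹ * y⁻¹ ∈ H₁ := fun x hx y hy =>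
    hH₁ ▸ Subgroup.mem_sup_left (Subgroup.commutator_mem_commutator hx hy)
  have hcoh := coherent_linear hsolv hS hH₁K habel
  have hMH₁ : M ≤ H₁ := hH₁ ▸ le_sup_right
  have hderived : ⁅K, K⁆ ≤ M → IsCoherent (inducedIrrAbove K M) {1}ᶜ τ := fun hd => by
    rwa [show M = H₁ by rw [hH₁, sup_eq_right.mpr hd]]
  have hlarge : 4 * K.index ^ 2 + 1 < H₁.relIndex K → IsCoherent (inducedIrrAbove K M) {1}ᶜ τ :=
    fun h => descends_nilpotent hsolv hS hMH₁ hH₁K.le le_rfl hnil hcoh h
  have hbetween : (∃ N : Subgroup L, N.Normal ∧ H₁ < N ∧ N < K) →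
      IsCoherent (inducedIrrAbove K M) {1}ᶜ τ := by
    rintro ⟨N, hN, h1, h2⟩
    exact hlarge (big_of_between hodd habel hfrob h1 h2)
  -- the commutator quotient of `K / M`
  have hidx : (commutator (K ⧸ M.subgroupOf K)).index = H₁.relIndex K := by
    have hmap : commutator (K ⧸ M.subgroupOf K) =
        (commutator K).map (QuotientGroup.mk' (M.subgroupOf K)) := by
      rw [commutator_def, commutator_def, Subgroup.map_commutator,
        Subgroup.map_top_of_surjective _ (QuotientGroup.mk'_surjective _)]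
    rw [hmap, Subgroup.index_map, QuotientGroup.ker_mk', MonoidHom.range_eq_top.mpr
      (QuotientGroup.mk'_surjective _), Subgroup.index_top, mul_one, hH₁, Subgroup.relIndex,
      Subgroup.subgroupOf_sup (Subgroup.commutator_le_left K K) hMK]
    congr 2
    apply Subgroup.map_injective K.subtype_injective
    rw [Subgroup.map_subtype_commutator, Subgroup.subgroupOf_map_subtype,
      inf_eq_left.mpr (Subgroup.commutator_le_left K K)]
  have hcard : Nat.card (K ⧸ M.subgroupOf K) = M.relIndex K := rfl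
  rcases hgood with ha | hb | hc | hd | ⟨p, m, hp, hpm, hep⟩
  · exact hbetween ha
  · exact hlarge hb
  · refine hbetween (exists_between_of_not_prime_pow habel hH₁K fun ⟨p, r, hp, hr⟩ => hc ?_)
    obtain ⟨m, hm⟩ := card_prime_pow_of_commutator_index hnil hp (hidx.trans hr)
    exact ⟨p, m, hp, hcard ▸ hm⟩
  · exact hderived hd
  · obtain ⟨r, -, hr⟩ := (Nat.dvd_prime_pow hp).mp (show H₁.relIndex K ∣ p ^ m from
      hpm ▸ Subgroup.relIndex_dvd_of_le_left K hMH₁)
    have hr0 : r ≠ 0 := fun h => hH₁K.not_ge (Subgroup.relIndex_eq_one.mp (by rw [hr, h, pow_zero]))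
    rcases Nat.lt_or_ge r 2 with hr1 | hr2
    · refine hderived ?_
      have hpr : (commutator (K ⧸ M.subgroupOf K)).index.Prime := by
        rw [hidx, hr, show r = 1 by omega, pow_one]; exact hp
      have hb := commutator_eq_bot_of_prime_index hnil hpr
      rw [Subgroup.commutator_le]
      intro x hx y hy
      have h1 : ⁅((⟨x, hx⟩ : K) : K ⧸ M.subgroupOf K), ((⟨y, hy⟩ : K) : K ⧸ M.subgroupOf K)⁆ ∈
          commutator (K ⧸ M.subgroupOf K) :=
        Subgroup.commutator_mem_commutator (Subgroup.mem_top _) (Subgroup.mem_top _)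
      rw [hb, Subgroup.mem_bot] at h1
      have h2 : (⁅(⟨x, hx⟩ : K), ⟨y, hy⟩⁆ : K) ∈ M.subgroupOf K :=
        (QuotientGroup.eq_one_iff _).mp
          ((map_commutatorElement (QuotientGroup.mk' (M.subgroupOf K)) _ _).trans h1)
      exact h2
    · refine hlarge ?_
      have hpodd : Odd p := hodd.of_dvd_nat (((dvd_pow_self p hr0).trans hr.symm.dvd).trans
        ((Subgroup.index_dvd_card (H₁.subgroupOf K)).trans (Subgroup.card_subgroup_dvd_card K)))
      have hp' := two_mul_add_one_le (hodd.of_dvd_nat (Subgroup.index_dvd_card K)) hpodd hp.one_lt hep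
      have : p ^ 2 ≤ H₁.relIndex K := hr ▸ Nat.pow_le_pow_right hp.pos hr2
      have hepos : 0 < K.index := Nat.pos_of_ne_zero Subgroup.index_ne_zero_of_finite
      nlinarith [Nat.mul_le_mul hp' hp']

end Main

end Cfsg.Agent.Lib.Dade
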