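import Cfsg.Agent.Lib.Dade.KernelChars
import Cfsg.Agent.Lib.Char.Degree
import Cfsg.Agent.S1535
import Mathlib.Tactic

/-!
The values on a Frobenius TI kernel of the virtual characters of the ambient group, in terms of a
coherent extension of induction.
-/

set_option autoImplicit false

open scoped ComplexConjugate

namespace Cfsg.Agent.Lib.Dade

open Cfsg Cfsg.Agent.Lib.Char

universe u

variable {G : Type u} [Group G] [Fintype G] {L K : Subgroup G} [Fintype L]
  (hF : OddPartition.IsFrobTI L K) [(K.subgroupOf L).Normal]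

open scoped Classical in
/-- The irreducible characters not trivial on the kernel, as a finite set. -/
noncomputable def relFinset (L K : Subgroup G) [Fintype L] : Finset (IrrCharacter L) :=
  Finset.univ.filter fun φ => (φ : L → ℂ) ∈ relChars (K.subgroupOf L)

theorem mem_relFinset {φ : IrrCharacter L} :
    φ ∈ relFinset L K ↔ (φ : L → ℂ) ∈ relChars (K.subgroupOf L) := by simp [relFinset]

omit [Fintype L] [(K.subgroupOf L).Normal] in
theorem isGeneralized_restrict {Ψ : G → ℂ} (h : IsGeneralizedCharacter G Ψ) :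
    IsGeneralizedCharacter L (fun x : L => Ψ x) := by
  obtain ⟨a, b, ha, hb, rfl⟩ := h
  exact ⟨_, _, isCharacter_restrict ha L, isCharacter_restrict hb L, rfl⟩

include hF

theorem exists_rel_degree_index :
    ∃ χ ∈ relChars (K.subgroupOf L), χ 1 = ((K.subgroupOf L).index : ℂ) := by
  classical
  have := Fintype.ofFinite (K.subgroupOf L)
  have htop : K.subgroupOf L ≠ ⊤ := fun h => hF.lt.not_ge (Subgroup.subgroupOf_eq_top.mp h)
  have hnil := S1535.isNilpotent_kernel (K.subgroupOf L) htop (kernel_centralizer hF)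
  have : Nontrivial (K.subgroupOf L) := by
    rw [Subgroup.nontrivial_iff_ne_bot, Ne, Subgroup.subgroupOf_eq_bot, disjoint_iff,
      inf_eq_left.mpr hF.lt.le]
    exact hF.ne_bot
  have ha : 1 < (commutator (K.subgroupOf L)).index := Subgroup.one_lt_index_of_ne_top
    (Group.IsSolvable.commutator_lt_top_of_nontrivial (K.subgroupOf L)).ne
  rw [← card_linear, Finite.one_lt_card_iff_nontrivial] at ha
  obtain ⟨θ, hθ⟩ := exists_ne (⟨⟨fun _ => 1, isIrrCharacter_one⟩, rfl⟩ :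
    {χ : IrrCharacter (K.subgroupOf L) // (χ : K.subgroupOf L → ℂ) 1 = 1})
  have hθ1 : (θ.1 : K.subgroupOf L → ℂ) ≠ fun _ => 1 := fun h => hθ (Subtype.ext (Subtype.ext h))
  exact ⟨_, ind_mem_relChars (kernel_centralizer hF) θ.1.2 hθ1, by rw [indFun_one, θ.2, mul_one]⟩

theorem exists_rel_degree {χ : L → ℂ} (hχ : χ ∈ relChars (K.subgroupOf L)) :
    ∃ c : ℕ, χ 1 = (c : ℂ) * ((K.subgroupOf L).index : ℂ) := by
  have := Fintype.ofFinite (K.subgroupOf L)
  obtain ⟨θ, hθ, -, rfl⟩ := exists_of_mem_relChars (kernel_centralizer hF) hχ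
  obtain ⟨n, hn⟩ := exists_natDegree (isCharacter_of_isIrr hθ)
  exact ⟨n, by rw [indFun_one, hn, mul_comm]⟩

/-- On the nontrivial elements of the kernel a virtual character differs by a rational constant from
the combination given by the extension. -/
theorem restrict_kernel {star : (L → ℂ) → G → ℂ}
    (hstar : IsLinearIsometryOn (zspan (relChars (K.subgroupOf L))) star)
    (hext : ∀ α ∈ zspanOn (relChars (K.subgroupOf L)) {1}ᶜ, star α = indFun L α)
    {Ψ : G → ℂ} (hΨ : IsGeneralizedCharacter G Ψ) :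
    ∃ r : ℚ, ∀ k : L, (k : G) ∈ K → k ≠ 1 → Ψ k =
      ∑ χ ∈ relFinset L K, classInner Ψ (star (χ : L → ℂ)) * (χ : L → ℂ) k + (r : ℂ) := by
  classical
  set e := (K.subgroupOf L).index with he
  have he0 : (e : ℂ) ≠ 0 := Nat.cast_ne_zero.mpr Subgroup.index_ne_zero_of_finite
  have hres : IsGeneralizedCharacter L (fun x : L => Ψ x) := isGeneralized_restrict hΨ
  obtain ⟨χ₁, hχ₁, hχ₁1⟩ := exists_rel_degree_index hF
  obtain ⟨z, hz⟩ := Classical.skolem.mp fun φ : IrrCharacter L => generalized_classInner_int hres φ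
  have hstarint : ∀ χ ∈ relChars (K.subgroupOf L), ∃ n : ℤ, classInner Ψ (star χ) = n :=
    fun χ hχ => classInner_int hΨ (hstar.2.2.2 χ (zspan_subset hχ))
  obtain ⟨w₁, hw₁⟩ := hstarint χ₁ hχ₁
  set q : ℤ := z ⟨χ₁, hχ₁.1⟩ - w₁ with hq
  have hdiff : ∀ χ : IrrCharacter L, (χ : L → ℂ) ∈ relChars (K.subgroupOf L) →
      (z χ : ℂ) - classInner Ψ (star (χ : L → ℂ)) = (q : ℂ) * ((χ : L → ℂ) 1 / e) := by
    intro χ hχ
    obtain ⟨c, hc⟩ := exists_rel_degree hF hχ
    have hmem : (χ : L → ℂ) - (c : ℤ) • χ₁ ∈ zspanOn (relChars (K.subgroupOf L)) {1}ᶜ :=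
      mem_zspanOn.mpr ⟨zspan_sub (zspan_subset hχ) (zspan_smul _ (zspan_subset hχ₁)), by
        rw [Pi.sub_apply, Pi.smul_apply, hc, hχ₁1, zsmul_eq_mul, Int.cast_natCast, sub_self]⟩
    have h1 : classInner Ψ (indFun L ((χ : L → ℂ) - (c : ℤ) • χ₁)) =
        classInner (fun x : L => Ψ x) ((χ : L → ℂ) - (c : ℤ) • χ₁) :=
      classInner_indFun_right L _ (isClassFunction_of_generalized hΨ)
    have h2 : star ((χ : L → ℂ) - (c : ℤ) • χ₁) = star (χ : L → ℂ) - (c : ℤ) • star χ₁ := by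
      have hneg : star ((-(c : ℤ)) • χ₁) = (-(c : ℤ)) • star χ₁ := hstar.2.1 χ₁ (zspan_subset hχ₁) _
      rw [sub_eq_add_neg, ← neg_smul, hstar.1 _ (zspan_subset hχ) _
        (zspan_smul _ (zspan_subset hχ₁)), hneg, neg_smul, ← sub_eq_add_neg]
    rw [← hext _ hmem, h2, classInner_sub_right, classInner_sub_right, classInner_zsmul_right,
      classInner_zsmul_right, hz χ, show classInner (fun x : L => Ψ x) χ₁ = (z ⟨χ₁, hχ₁.1⟩ : ℂ) from
        hz ⟨χ₁, hχ₁.1⟩, hw₁] at h1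
    rw [hc, mul_div_assoc, div_self he0, mul_one, hq]
    push_cast at h1 ⊢
    linear_combination -h1
  set F := relFinset L K with hFdef
  let D : IrrCharacter L → ℕ := fun φ => charDegree (φ : L → ℂ)
  have hD : ∀ φ : IrrCharacter L, (φ : L → ℂ) 1 = D φ := fun φ =>
    apply_one_eq_charDegree (isCharacter_of_isIrr φ.2)
  refine ⟨∑ φ ∈ Fᶜ, (z φ : ℚ) * D φ - q * (∑ φ ∈ Fᶜ, (D φ : ℚ) ^ 2) / e, fun k hk hk1 => ?_⟩
  have hout : ∀ φ ∈ Fᶜ, (φ : L → ℂ) k = (D φ : ℂ) := by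
    intro φ hφ
    rw [Finset.mem_compl, hFdef, mem_relFinset] at hφ
    by_contra hne
    exact hφ ⟨φ.2, k, hk, fun h => hne (h.trans (hD φ))⟩
  have h1 := congrFun (eq_sum_classInner_smul (isClassFunction_of_generalized hres)) k
  simp only [Finset.sum_apply, Pi.smul_apply, smul_eq_mul, hz] at h1
  rw [← Finset.sum_add_sum_compl F] at h1
  have hreg := sum_degree_mul (G := L) k
  rw [if_neg hk1, ← Finset.sum_add_sum_compl F] at hreg
  have e1 : ∑ φ ∈ F, (z φ : ℂ) * (φ : L → ℂ) k = ∑ φ ∈ F, classInner Ψ (star (φ : L → ℂ)) *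
      (φ : L → ℂ) k + (q : ℂ) / e * ∑ φ ∈ F, (φ : L → ℂ) 1 * (φ : L → ℂ) k := by
    rw [Finset.mul_sum, ← Finset.sum_add_distrib]
    refine Finset.sum_congr rfl fun φ hφ => ?_
    rw [div_mul_eq_mul_div, mul_div_assoc]
    linear_combination (φ : L → ℂ) k * hdiff φ (mem_relFinset.mp hφ)
  have e2 : ∑ φ ∈ Fᶜ, (φ : L → ℂ) 1 * (φ : L → ℂ) k = ∑ φ ∈ Fᶜ, (D φ : ℂ) ^ 2 :=
    Finset.sum_congr rfl fun φ hφ => by rw [hout φ hφ, hD φ, sq]
  have e3 : ∑ φ ∈ Fᶜ, (z φ : ℂ) * (φ : L → ℂ) k = ∑ φ ∈ Fᶜ, (z φ : ℂ) * (D φ : ℂ) :=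
    Finset.sum_congr rfl fun φ hφ => by rw [hout φ hφ]
  rw [h1, e1, e3, eq_neg_of_add_eq_zero_left hreg, e2]
  push_cast
  ring

end Cfsg.Agent.Lib.Dade
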