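import Cfsg.Agent.Lib.Dade.SibleyCentral
import Cfsg.Agent.Lib.Dade.Glue
import Cfsg.Agent.Lib.Dade.TIExceptional
import Cfsg.Agent.S1523
import Cfsg.Agent.S0065
import Mathlib.Tactic

/-!
Sibley's coherence theorem for a nonabelian TI Sylow kernel.
-/

set_option autoImplicit false

open scoped ComplexConjugate

namespace Cfsg.Agent.Lib.Dade

open Cfsg Cfsg.Agent.Lib.Char

universe u

variable {G : Type u} [Group G] [Fintype G] {L K : Subgroup G} [Fintype L]
  [(K.subgroupOf L).Normal]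

/-- A nontrivial central subgroup of the kernel inside its commutator subgroup, normal in the
normaliser, on which the relevant characters of least degree are trivial. -/
theorem exists_central_commutator (hF : OddPartition.IsFrobTI L K) {p : ℕ} [Fact p.Prime]
    (hP : IsPGroup p K) (hna : ¬ IsMulCommutative K) :
    ∃ Z : Subgroup G, Z ≠ ⊥ ∧ Z ≤ K ∧ (∀ z ∈ Z, ∀ k ∈ K, z * k = k * z) ∧
      (∀ x ∈ L, ∀ z ∈ Z, x * z * x⁻¹ ∈ Z) ∧
      ∀ χ ∈ relChars (K.subgroupOf L), charDegree χ = (K.subgroupOf L).index → χ ∉ relZ L Z := by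
  classical
  set N0 := K.subgroupOf L with hN0
  have := Fintype.ofFinite N0
  let e : N0 ≃* K := Subgroup.subgroupOfEquivOfLe hF.lt.le
  have : Group.IsNilpotent N0 := (hP.of_equiv e.symm).isNilpotent
  have hc : commutator N0 ≠ ⊥ := by
    rw [Ne, commutator_eq_bot_iff]
    intro h
    exact hna ⟨⟨fun a b => e.symm.injective (by rw [map_mul, map_mul]; exact h.is_comm.comm _ _)⟩⟩
  set Z0 := commutator N0 ⊓ Subgroup.center N0 with hZ0
  refine ⟨(Z0.map N0.subtype).map L.subtype, ?_, ?_, ?_, ?_, ?_⟩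
  · rw [Ne, Subgroup.map_eq_bot_iff_of_injective _ L.subtype_injective,
      Subgroup.map_eq_bot_iff_of_injective _ N0.subtype_injective]
    exact S0065.inf_center_ne_bot inferInstance hc
  · rintro _ ⟨_, ⟨n, -, rfl⟩, rfl⟩
    exact n.2
  · rintro _ ⟨_, ⟨n, hn, rfl⟩, rfl⟩ k hk
    have h := Subgroup.mem_center_iff.mp hn.2 ⟨⟨k, hF.lt.le hk⟩, hk⟩
    exact (congrArg (fun t : N0 => ((t : L) : G)) h).symm
  · rintro x hx _ ⟨_, ⟨n, hn, rfl⟩, rfl⟩
    let f : N0 ≃* N0 := MulAut.conjNormal (⟨x, hx⟩ : L)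
    refine ⟨_, ⟨f n, ⟨?_, ?_⟩, rfl⟩, ?_⟩
    · exact (SetLike.ext_iff.mp (Subgroup.Characteristic.fixed (H := commutator N0) inferInstance f) n).mpr hn.1
    · exact (SetLike.ext_iff.mp (Subgroup.Characteristic.fixed (H := Subgroup.center N0) inferInstance f) n).mpr hn.2
    · simp [f]
  · rintro χ hχ hdeg ⟨-, z, ⟨_, ⟨n, hn, rfl⟩, hz⟩, hne⟩
    obtain ⟨θ, hθ, -, rfl⟩ := exists_of_mem_relChars (kernel_centralizer hF) hχ
    have hθ1 : θ 1 = 1 := by
      rw [← charDegree_eq_one_iff hθ]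
      rw [charDegree_indFun _ (isCharacter_of_isIrr hθ)] at hdeg
      exact Nat.eq_of_mul_eq_mul_left (Nat.pos_of_ne_zero Subgroup.index_ne_zero_of_finite)
        (hdeg.trans (mul_one _).symm)
    have hz' : z = (n : L) := Subtype.ext hz.symm
    refine hne ?_
    rw [hz', show (1 : L) = ((1 : N0) : L) from rfl]
    have h := indFun_restrict_normal (N := N0) θ
    rw [show indFun N0 θ (n : L) = _ from congrFun h n,
      show indFun N0 θ ((1 : N0) : L) = _ from congrFun h 1]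
    simp only [Pi.smul_apply, Finset.sum_apply]
    congr 1
    refine Finset.sum_congr rfl fun g _ => ?_
    have hc1 : conjChar N0 g θ 1 = 1 := by
      refine (congrArg θ (Subtype.ext ?_ : _ = (1 : N0))).trans hθ1
      simp
    obtain ⟨l, hl⟩ := exists_hom_of_degree_one
      (isCharacter_of_isIrr (isIrrCharacter_conjChar N0 g hθ)) hc1
    rw [hl, hl, map_one, (Abelianization.commutator_subset_ker l hn.1 : l n = 1)]

theorem charDegree_conjFun {X : Type u} [Group X] (χ : X → ℂ) :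
    charDegree (conjFun χ) = charDegree χ := by
  simp [charDegree, conjFun]

/-- Sibley: a nonabelian TI Sylow kernel of odd order gives coherence. -/
theorem sibley_full {p : ℕ} [hp : Fact p.Prime] (hp2 : p ≠ 2) (P : Sylow p G)
    (hPK : (P : Subgroup G) = K) (hLN : L = Subgroup.normalizer (K : Set G))
    (hF : OddPartition.IsFrobTI L K) (hna : ¬ IsMulCommutative K) :
    IsCoherent (relChars (K.subgroupOf L)) {1}ᶜ (fun α : L → ℂ => indFun L α) := by
  classical
  set τ := fun α : L → ℂ => indFun L α with hτdef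
  have hP : IsPGroup p K := hPK ▸ P.isPGroup'
  set e := (K.subgroupOf L).index with he
  have he0 : 0 < e := Nat.pos_of_ne_zero Subgroup.index_ne_zero_of_finite
  obtain ⟨Z, hZ1, hZK, hZc, hZn, hZlin⟩ := exists_central_commutator hF hP hna
  obtain ⟨hconjW, hZeq, hWne, hcop⟩ := relZ_facts hF hp2 hP hna Z hZ1 hZK hZn
  have hKodd : Odd (Nat.card K) := by
    obtain ⟨n, hn⟩ := IsPGroup.iff_card.mp hP
    rw [hn]
    exact (hp.out.odd_of_ne_two hp2).pow
  have hLodd := odd_card_of_nonabelian hF hKodd hna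
  obtain ⟨hiso, hzero⟩ := indFun_isometry hF
  set R := relChars (K.subgroupOf L) with hR
  have hirr : ∀ x ∈ R, IsIrrCharacter L x := fun x hx => hx.1
  have hconjR : ∀ x ∈ R, conjFun x ∈ R ∧ conjFun x ≠ x := by
    rintro χ ⟨hχ, z, hz, hne⟩
    refine ⟨⟨Lib.Char.isIrrCharacter_conj hχ, z, hz, fun h => hne ((starRingEnd ℂ).injective h)⟩,
      fun h => hne ?_⟩
    have := eq_one_of_real hLodd ⟨χ, hχ⟩ fun y => Complex.conj_eq_iff_im.mp (congrFun h y)
    change χ = fun _ => 1 at this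
    rw [this]
  -- degrees
  let d : (L → ℂ) → ℕ := fun x => charDegree x / e
  have hdeg : ∀ x ∈ R, ∃ k, charDegree x = e * p ^ k ∧ d x = p ^ k ∧ d x ^ 2 ≤ Z.relIndex K := by
    intro x hx
    obtain ⟨k, hk, hk2⟩ := rel_degree hF hP Z hZK hZc hx
    have hdk : d x = p ^ k := by
      show charDegree x / e = _
      rw [hk, Nat.mul_div_cancel_left _ he0]
    exact ⟨k, hk, hdk, hdk ▸ hk2⟩
  have hdR : ∀ x ∈ R, x 1 = (e : ℂ) * d x := fun x hx => by
    obtain ⟨k, hk, hdk, -⟩ := hdeg x hx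
    rw [apply_one_eq_charDegree (isCharacter_of_isIrr (hirr x hx)), hk, hdk, Nat.cast_mul]
  have hdconj : ∀ x, d (conjFun x) = d x := fun x => by
    show charDegree (conjFun x) / e = charDegree x / e
    rw [charDegree_conjFun]
  obtain ⟨x₁, hx₁R, hx₁1⟩ := exists_rel_degree_index hF
  have hdx₁ : d x₁ = 1 := by
    show charDegree x₁ / e = 1
    rw [charDegree_eq_of_apply_one hx₁1, Nat.div_self he0]
  have hd : ∀ x ∈ R, x 1 = d x * x₁ 1 := fun x hx => by rw [hdR x hx, hx₁1, mul_comm]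
  set S : Finset (L → ℂ) := (relFinset L K).image Subtype.val with hSdef
  have hS : ∀ x, x ∈ S ↔ x ∈ R := fun x => by
    rw [hSdef, Finset.mem_image]
    exact ⟨fun ⟨φ, hφ, h⟩ => h ▸ mem_relFinset.mp hφ, fun h => ⟨⟨x, h.1⟩, mem_relFinset.mpr h, rfl⟩⟩
  -- the characters of least degree
  set X₀ := S.filter (fun x => d x = 1) with hX₀
  have h0R : ∀ x ∈ X₀, x ∈ R := fun x hx => (hS x).mp (Finset.mem_filter.mp hx).1
  have h0d : ∀ x ∈ X₀, d x = 1 := fun x hx => (Finset.mem_filter.mp hx).2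
  have hx₁X : x₁ ∈ X₀ := Finset.mem_filter.mpr ⟨(hS _).mpr hx₁R, hdx₁⟩
  have h0conj : ∀ x ∈ X₀, conjFun x ∈ X₀ ∧ conjFun x ≠ x := fun x hx =>
    ⟨Finset.mem_filter.mpr ⟨(hS _).mpr (hconjR x (h0R x hx)).1, (hdconj x).trans (h0d x hx)⟩,
      (hconjR x (h0R x hx)).2⟩
  have hmono : ∀ {T : Set (L → ℂ)}, T ⊆ R → ∀ α ∈ zspanOn T {1}ᶜ, α ∈ zspanOn R {1}ᶜ :=
    fun hT α hα => ⟨zspan_mono hT hα.1, hα.2⟩
  have hX₀coh : IsCoherent (X₀ : Set (L → ℂ)) {1}ᶜ τ := by
    have hsub : (X₀ : Set (L → ℂ)) ⊆ R := fun x hx => h0R x hx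
    exact coherent_of_feit (d := d) (χ₁ := x₁) X₀ (fun x hx => hirr x (h0R x hx))
      ⟨fun a ha b hb => hiso.1 a (hmono hsub a ha) b (hmono hsub b hb),
        fun a ha n => hiso.2.1 a (hmono hsub a ha) n,
        fun a ha b hb => hiso.2.2.1 a (hmono hsub a ha) b (hmono hsub b hb),
        fun a ha => hiso.2.2.2 a (hmono hsub a ha)⟩
      (fun α hα => hzero α (hmono hsub α hα)) (fun x hx => hd x (h0R x hx)) hdx₁ hx₁X
      ⟨_, h0conj x₁ hx₁X⟩ fun x hx hx1 => absurd (h0d x hx) hx1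
  obtain ⟨u₀, g0, o0, e0'⟩ := exists_images hX₀coh
  -- the characters not trivial on `Z`
  set W := relZFinset L Z with hW
  have hWR : ∀ y ∈ W, y ∈ R := fun y hy => relZ_subset Z hZK (mem_relZFinset.mp hy)
  have hdis : Disjoint X₀ W := Finset.disjoint_left.mpr fun x hx hxW => by
    refine hZlin x (h0R x hx) ?_ (mem_relZFinset.mp hxW)
    obtain ⟨k, hk, hdk, -⟩ := hdeg x (h0R x hx)
    rw [hk, ← hdk, h0d x hx, mul_one]
  obtain ⟨u₁, g1, o1, e1'⟩ := exists_images
    (sibley_central hF hp2 hP hna Z hZ1 hZK hZc hZn)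
  obtain ⟨y₁, hy₁, hmin⟩ := Finset.exists_min_image W d hWne
  set d₁ := d y₁ with hd₁
  obtain ⟨k₁, -, hk₁, -⟩ := hdeg y₁ (hWR _ hy₁)
  have hd₁pos : 0 < d₁ := by rw [hd₁, hk₁]; exact pow_pos hp.out.pos _
  let c : (L → ℂ) → ℕ := fun y => d y / d₁
  have hc : ∀ y ∈ W, d y = c y * d₁ := fun y hy => by
    refine (Nat.div_mul_cancel ?_).symm
    obtain ⟨k, -, hk, -⟩ := hdeg y (hWR _ hy)
    have := hmin y hy
    rw [hd₁, hk₁, hk] at *
    exact pow_dvd_pow p ((Nat.pow_le_pow_iff_right hp.out.one_lt).mp this)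
  have hc1 : c y₁ = 1 := Nat.div_self hd₁pos
  have hWc : ∀ y ∈ W, y 1 = (c y : ℂ) * y₁ 1 := fun y hy => by
    rw [hdR y (hWR _ hy), hdR y₁ (hWR _ hy₁), hc y hy, Nat.cast_mul, ← hd₁]
    ring
  have hWconj : ∀ y ∈ W, conjFun y ∈ W ∧ conjFun y ≠ y := fun y hy =>
    ⟨mem_relZFinset.mpr (hconjW y (mem_relZFinset.mp hy)).1, (hconjW y (mem_relZFinset.mp hy)).2⟩
  have hI : ∀ a ∈ R, ∀ b ∈ R, classInner a b = if a = b then 1 else 0 := fun a ha b hb => by
    split_ifs with h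
    · rw [h, classInner_irr_self (hirr b hb)]
    · exact classInner_irr_ne (hirr a ha) (hirr b hb) h
  have e0 : ∀ x ∈ X₀, τ (x - x₁) = u₀ x - u₀ x₁ := fun x hx => by
    have := e0' x hx x₁ hx₁X 1 (by rw [hd x (h0R x hx), h0d x hx])
    simpa using this
  have e1 : ∀ y ∈ W, τ (y - c y • y₁) = u₁ y - c y • u₁ y₁ := fun y hy =>
    e1' y (mem_relZFinset.mp hy) y₁ (mem_relZFinset.mp hy₁) (c y) (hWc y hy)
  have o1' : ∀ x ∈ W, ∀ y ∈ W, classInner (u₁ x) (u₁ y) = classInner x y := fun x hx y hy =>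
    o1 x (mem_relZFinset.mp hx) y (mem_relZFinset.mp hy)
  -- the two sets of images are orthogonal
  have hdiff : ∀ x ∈ R, ∀ y ∈ R, d x = d y → x - y ∈ zspanOn R {1}ᶜ := fun x hx y hy h =>
    mem_zspanOn.mpr ⟨zspan_sub (zspan_subset hx) (zspan_subset hy), by
      rw [Pi.sub_apply, hd x hx, hd y hy, h, sub_self]⟩
  have hcross : ∀ x ∈ X₀, ∀ y ∈ W, classInner (u₀ x) (u₁ y) = 0 := by
    intro x hx y hy
    obtain ⟨hx', hxne⟩ := h0conj x hx
    obtain ⟨hy', hyne⟩ := hWconj y hy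
    have ex : τ (x - conjFun x) = u₀ x - u₀ (conjFun x) := by
      have := e0' x hx _ hx' 1 (by rw [hd x (h0R x hx), hd _ (h0R _ hx'), hdconj, Nat.cast_one, one_mul])
      simpa using this
    have ey : τ (y - conjFun y) = u₁ y - u₁ (conjFun y) := by
      have := e1' y (mem_relZFinset.mp hy) _ (mem_relZFinset.mp hy') 1
        (by rw [hd y (hWR y hy), hd _ (hWR _ hy'), hdconj, Nat.cast_one, one_mul])
      simpa using this
    have mx := hdiff x (h0R x hx) _ (h0R _ hx') (hdconj x).symm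
    have my := hdiff y (hWR y hy) _ (hWR _ hy') (hdconj y).symm
    refine cross_orth (g0 x hx) (g0 _ hx') (g1 y (mem_relZFinset.mp hy)) (g1 _ (mem_relZFinset.mp hy'))
      ?_ ?_ ?_ ?_ ?_ ?_ ?_ ?_ ?_
    · rw [o0 x hx x hx, classInner_irr_self (hirr x (h0R x hx))]
    · rw [o0 _ hx' _ hx', classInner_irr_self (hirr _ (h0R _ hx'))]
    · rw [o1' y hy y hy, classInner_irr_self (hirr y (hWR y hy))]
    · rw [o1' _ hy' _ hy', classInner_irr_self (hirr _ (hWR _ hy'))]
    · rw [o0 x hx _ hx', classInner_irr_ne (hirr x (h0R x hx)) (hirr _ (h0R _ hx')) hxne.symm]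
    · rw [o1' y hy _ hy', classInner_irr_ne (hirr y (hWR y hy)) (hirr _ (hWR _ hy')) hyne.symm]
    · rw [← ex]; exact hzero _ mx
    · rw [← ey]; exact hzero _ my
    · rw [← ex, ← ey, hiso.2.2.1 _ mx _ my]
      have hne : ∀ a ∈ X₀, ∀ b ∈ W, a ≠ b := fun a ha b hb h =>
        Finset.disjoint_left.mp hdis ha (h ▸ hb)
      rw [classInner_sub_left, classInner_sub_right, classInner_sub_right,
        hI _ (h0R _ hx) _ (hWR _ hy), hI _ (h0R _ hx) _ (hWR _ hy'), hI _ (h0R _ hx') _ (hWR _ hy),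
        hI _ (h0R _ hx') _ (hWR _ hy'), if_neg (hne _ hx _ hy), if_neg (hne _ hx _ hy'),
        if_neg (hne _ hx' _ hy), if_neg (hne _ hx' _ hy'), sub_zero, sub_zero]
  -- the congruence
  have hφ : y₁ - d₁ • x₁ ∈ zspanOn R {1}ᶜ := diff_mem_zspanOn hd (hWR _ hy₁) hx₁R
  obtain ⟨μ, s, hs, hμ⟩ := CharClifford.exists_irr_of_generalized_norm_one (g0 x₁ hx₁X)
    (by rw [o0 _ hx₁X _ hx₁X, classInner_irr_self (hirr _ hx₁R)])
  have hs0 : (s : ℂ) ≠ 0 := by rcases hs with rfl | rfl <;> norm_num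
  set r : L → ℂ := fun x => (μ : G → ℂ) x with hr
  have hμgen : IsGeneralizedCharacter G (μ : G → ℂ) :=
    generalized_of_isCharacter (isCharacter_of_isIrr μ.2)
  have hrgen : IsGeneralizedCharacter L r := isGeneralized_restrict hμgen
  obtain ⟨z, hz⟩ := Classical.skolem.mp fun φ : IrrCharacter L => generalized_classInner_int hrgen φ
  set q : ℤ := z ⟨y₁, hirr _ (hWR _ hy₁)⟩ with hq
  have hqy : ∀ φ : IrrCharacter L, (φ : L → ℂ) ∈ relZ L Z → (z φ : ℂ) = (c (φ : L → ℂ) : ℂ) * q := by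
    intro φ hφ'
    have hy := mem_relZFinset.mpr hφ'
    have h1 : classInner (μ : G → ℂ) (u₁ (φ : L → ℂ) - c (φ : L → ℂ) • u₁ y₁) = 0 := by
      have h2 : ∀ y ∈ W, classInner (μ : G → ℂ) (u₁ y) = 0 := fun y hy => by
        have := hcross x₁ hx₁X y hy
        rw [hμ, classInner_smul_left] at this
        exact (mul_eq_zero.mp this).resolve_left hs0
      rw [classInner_sub_right, ← natCast_zsmul, classInner_zsmul_right, h2 _ hy, h2 _ hy₁,
        mul_zero, sub_zero]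
    rw [← e1 _ hy, hτdef] at h1
    have h2 : classInner r ((φ : L → ℂ) - c (φ : L → ℂ) • y₁) = 0 := by
      rw [← h1]
      exact (classInner_indFun_right L _ (isClassFunction_of_isIrr μ.2)).symm
    rw [classInner_sub_right, ← natCast_zsmul, classInner_zsmul_right, hz φ,
      show classInner r y₁ = (q : ℂ) from hz ⟨y₁, hirr _ (hWR _ hy₁)⟩, sub_eq_zero,
      Int.cast_natCast] at h2
    exact h2
  have hKcard : Nat.card (K.subgroupOf L) = Nat.card K :=
    Nat.card_congr (Subgroup.subgroupOfEquivOfLe hF.lt.le).toEquiv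
  have hdrop : ∀ k : L, (k : G) ∈ Z → k ≠ 1 →
      (d₁ : ℂ) * (r 1 - r k) = (q : ℂ) * (Nat.card K : ℂ) := by
    intro k hk hk1
    have hrc : IsClassFunction L r := isClassFunction_of_generalized hrgen
    have h1 : r 1 - r k = ∑ φ : IrrCharacter L, (z φ : ℂ) * ((φ : L → ℂ) 1 - (φ : L → ℂ) k) := by
      rw [congrFun (eq_sum_classInner_smul hrc) 1, congrFun (eq_sum_classInner_smul hrc) k,
        Finset.sum_apply, Finset.sum_apply, ← Finset.sum_sub_distrib]
      simp only [Pi.smul_apply, smul_eq_mul, hz, mul_sub]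
    have h2 : ∑ φ : IrrCharacter L, (φ : L → ℂ) 1 * ((φ : L → ℂ) 1 - (φ : L → ℂ) k) =
        (Nat.card L : ℂ) := by
      simp only [mul_sub, Finset.sum_sub_distrib]
      rw [sum_degree_mul (G := L) 1, sum_degree_mul (G := L) k, if_pos rfl, if_neg hk1, sub_zero]
    have key : ((e : ℂ) * d₁) * (r 1 - r k) = (q : ℂ) * (Nat.card L : ℂ) := by
      rw [h1, ← h2, Finset.mul_sum, Finset.mul_sum]
      refine Finset.sum_congr rfl fun φ _ => ?_
      by_cases hφ' : (φ : L → ℂ) ∈ relZ L Z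
      · have hy := mem_relZFinset.mpr hφ'
        rw [hqy φ hφ', hdR _ (hWR _ hy), hc _ hy, Nat.cast_mul]
        ring
      · rw [show (φ : L → ℂ) k = (φ : L → ℂ) 1 from
          by_contra fun h => hφ' ⟨φ.2, k, hk, h⟩, sub_self, mul_zero, mul_zero, mul_zero, mul_zero]
    rw [← (K.subgroupOf L).card_mul_index, hKcard, ← he, Nat.cast_mul] at key
    apply mul_left_cancel₀ (Nat.cast_ne_zero.mpr he0.ne' : (e : ℂ) ≠ 0)
    linear_combination key
  obtain ⟨m₀, hm₀⟩ : ∃ m : ℤ, q = (d₁ : ℤ) * m := by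
    obtain ⟨k, hk, hk1⟩ := Subgroup.bot_or_exists_ne_one Z |>.resolve_left hZ1
    have hcar : ∀ z ∈ Z, z ≠ 1 → L ⊓ Subgroup.centralizer ({z} : Set G) = K := fun z hz hz1 =>
      le_antisymm (inf_le_right.trans (hF.centralizer_le z (hZK hz) hz1))
        (le_inf hF.lt.le fun y hy => Subgroup.mem_centralizer_singleton_iff.mpr
          (hZc z hz y hy).symm)
    have hval : ∀ a ∈ Z, a ≠ 1 → (d₁ : ℂ) * ((μ : G → ℂ) 1 - (μ : G → ℂ) a) =
        (q : ℂ) * (Nat.card K : ℂ) := fun a ha ha1 =>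
      hdrop ⟨a, hF.lt.le (hZK ha)⟩ ha fun h => ha1 (congrArg Subtype.val h)
    obtain ⟨n, D, hn, hD, hdvd⟩ := S1523.result p P (fun g hg x hx hgx => by
        by_contra hx1
        simp only [SetLike.mem_coe, hPK] at hg hx hgx
        exact hg (hLN ▸ hF.ti g x hx hx1 hgx))
      (by rw [hPK, ← hLN]; exact hLodd) Z hZ1 (hPK ▸ hZK)
      (fun x hx => by rw [hPK, ← hLN] at hx; exact hZn x hx)
      (fun z hz y hy => hZc z hz y (hPK ▸ hy))
      (fun z hz z' hz' h1 h1' => by rw [hPK, ← hLN, hcar z hz h1, hcar z' hz' h1'])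
      (μ : G → ℂ) μ.2 (fun a ha b hb ha1 hb1 => by
        have := (hval a ha ha1).trans (hval b hb hb1).symm
        have := mul_left_cancel₀ (Nat.cast_ne_zero.mpr hd₁pos.ne' : (d₁ : ℂ) ≠ 0) this
        linear_combination -this) k hk hk1
    obtain ⟨t, ht⟩ := hdvd
    refine ⟨t, ?_⟩
    have h := hval k hk hk1
    rw [hD, hn, ← Int.cast_sub, ht, hPK] at h
    have h' : (d₁ : ℤ) * ((Nat.card K : ℤ) * t) = q * (Nat.card K : ℤ) := by exact_mod_cast h
    refine mul_right_cancel₀ (b := (Nat.card K : ℤ)) (by exact_mod_cast (Nat.card_pos).ne') ?_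
    rw [← h']
    ring
  have hcong : ∃ m : ℤ, classInner (τ (y₁ - d₁ • x₁)) (u₀ x₁) + d₁ = m * d₁ := by
    refine ⟨s * (m₀ - z ⟨x₁, hirr _ hx₁R⟩) + 1, ?_⟩
    have h1 : classInner (τ (y₁ - d₁ • x₁)) (μ : G → ℂ) = classInner (y₁ - d₁ • x₁) r :=
      classInner_indFun L _ (isClassFunction_of_isIrr μ.2)
    have hzy : classInner y₁ r = (q : ℂ) := by
      rw [classInner_conj_symm, show classInner r y₁ = (q : ℂ) from hz ⟨y₁, hirr _ (hWR _ hy₁)⟩,
        map_intCast]
    have hzx : classInner x₁ r = (z ⟨x₁, hirr _ hx₁R⟩ : ℂ) := by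
      rw [classInner_conj_symm, show classInner r x₁ = _ from hz ⟨x₁, hirr _ hx₁R⟩, map_intCast]
    rw [hμ, classInner_smul_right, h1, classInner_sub_left, ← natCast_zsmul, classInner_zsmul_left,
      hzy, hzx, map_intCast, hm₀]
    push_cast
    ring
  obtain ⟨u, hu⟩ := glue hirr hiso hzero conjFun h0R hWR hdis hd h0d hc hc1 hx₁X hy₁
    ⟨(h0conj _ hx₁X).1, (h0conj _ hx₁X).2, conjFun_conjFun _⟩
    ⟨(hWconj _ hy₁).1, (hWconj _ hy₁).2, conjFun_conjFun _, by
      show d (conjFun y₁) / d₁ = 1; rw [hdconj]; exact hc1⟩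
    g0 o0 e0 (fun x hx => g1 x (mem_relZFinset.mp hx)) o1' e1 hcross hcong
  -- the size of `W`
  have hbig : Z.relIndex K ≤ ∑ y ∈ W, d y ^ 2 := by
    have hpos : 0 < Z.relIndex K := Nat.pos_of_ne_zero Subgroup.index_ne_zero_of_finite
    have hZ2 : 1 < Nat.card Z := Subgroup.one_lt_card_iff_ne_bot Z |>.mpr hZ1
    have hco : e.Coprime (Z.relIndex K) := by
      obtain ⟨n, hn⟩ := IsPGroup.iff_card.mp hP
      obtain ⟨a, -, h⟩ := (Nat.dvd_prime_pow hp.out).mp
        (hn ▸ Subgroup.index_dvd_card (Z.subgroupOf K) : Z.relIndex K ∣ p ^ n)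
      rw [h]
      exact hcop.pow_right a
    change e * ∑ y ∈ W, d y ^ 2 + Z.relIndex K = Z.relIndex K * Nat.card Z at hZeq
    have h1 : e * ∑ y ∈ W, d y ^ 2 = Z.relIndex K * (Nat.card Z - 1) := by
      rw [Nat.mul_sub, mul_one]; omega
    have h2 : e ≤ Nat.card Z - 1 :=
      Nat.le_of_dvd (by omega) (hco.dvd_of_dvd_mul_left ⟨_, h1.symm⟩)
    refine Nat.le_of_mul_le_mul_left ?_ he0
    calc e * Z.relIndex K = Z.relIndex K * e := mul_comm _ _
      _ ≤ Z.relIndex K * (Nat.card Z - 1) := Nat.mul_le_mul_left _ h2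
      _ = _ := h1.symm
  have hrest : ∀ T : Finset (L → ℂ), T ⊆ S → ∃ u, FeitBase τ d x₁ (X₀ ∪ W ∪ T) u := by
    intro T
    induction T using Finset.induction with
    | empty => intro _; exact ⟨u, by rw [Finset.union_empty]; exact hu⟩
    | insert χ T _ ih =>
      intro hT
      obtain ⟨v, hv⟩ := ih ((Finset.subset_insert _ _).trans hT)
      rw [Finset.union_insert]
      by_cases hmem : χ ∈ X₀ ∪ W ∪ T
      · exact ⟨v, by rw [Finset.insert_eq_of_mem hmem]; exact hv⟩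
      have hχ : χ ∈ R := (hS χ).mp (hT (Finset.mem_insert_self _ _))
      refine feit_step hirr hiso hzero hd hdx₁ (fun x hx => ?_) hv hχ hmem ?_
      · rcases Finset.mem_union.mp hx with hx | hx
        · rcases Finset.mem_union.mp hx with hx | hx
          · exact h0R x hx
          · exact hWR x hx
        · exact (hS x).mp (hT (Finset.mem_insert_of_mem hx))
      · have h1 : ∑ y ∈ W, d y ^ 2 ≤ ∑ y ∈ X₀ ∪ W ∪ T, d y ^ 2 :=
          Finset.sum_le_sum_of_subset fun y hy =>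
            Finset.mem_union_left _ (Finset.mem_union_right _ hy)
        obtain ⟨k, -, hk, hk2⟩ := hdeg χ hχ
        have h3 : 3 ≤ d χ := by
          have hk0 : k ≠ 0 := fun h => hmem (Finset.mem_union_left _ (Finset.mem_union_left _
            (Finset.mem_filter.mpr ⟨(hS χ).mpr hχ, by rw [hk, h, pow_zero]⟩)))
          rw [hk]
          refine le_trans ?_ (Nat.le_self_pow hk0 p)
          have := hp.out.two_le
          omega
        nlinarith
  obtain ⟨v, hv⟩ := hrest S subset_rfl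
  have hall : X₀ ∪ W ∪ S = S := Finset.union_eq_right.mpr (Finset.union_subset
    (fun x hx => (hS x).mpr (h0R x hx)) fun x hx => (hS x).mpr (hWR x hx))
  rw [hall] at hv
  have hSset : (S : Set (L → ℂ)) = R := Set.ext fun x => hS x
  rw [← hSset] at hiso ⊢
  exact coherent_of_feitBase S (fun x hx => hirr x ((hS x).mp hx)) hiso
    (fun x hx => hd x ((hS x).mp hx)) ⟨conjFun x₁, (hS _).mpr (hconjR _ hx₁R).1,
      (hconjR _ hx₁R).2⟩ hv

end Cfsg.Agent.Lib.Dade
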