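import Cfsg.Agent.Lib.Dade.KernelChars
import Cfsg.Agent.Lib.Dade.FeitStep
import Cfsg.Agent.Lib.Char.Scalar
import Cfsg.Agent.Lib.Char.Degree
import Cfsg.Agent.Lib.Char.BrauerPerm
import Cfsg.Agent.Lib.CharKernel
import Mathlib.Tactic

/-!
Sibley's coherence theorem, first part: the characters nontrivial on a central normal subgroup of a
nonabelian TI Sylow kernel.
-/

set_option autoImplicit false

open scoped ComplexConjugate

namespace Cfsg.Agent.Lib.Dade

open Cfsg Cfsg.Agent.Lib.Char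

universe u

/-- The square of an irreducible degree times the order of a central subgroup is at most the order
of the group. -/
theorem sq_degree_mul_card_le {X : Type u} [Group X] [Fintype X] {θ : X → ℂ}
    (hθ : IsIrrCharacter X θ) (Z : Subgroup X) (hZ : Z ≤ Subgroup.center X) :
    charDegree θ ^ 2 * Nat.card Z ≤ Nat.card X := by
  classical
  have h1 := classInner_irr_self hθ
  rw [classInner, inv_mul_eq_iff_eq_mul₀ (card_ne_zero_complex X), mul_one] at h1
  have h2 : ∑ x : X, Complex.normSq (θ x) = (Nat.card X : ℝ) := by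
    have : ((∑ x : X, Complex.normSq (θ x) : ℝ) : ℂ) = ((Nat.card X : ℝ) : ℂ) := by
      push_cast
      rw [← h1]
      exact Finset.sum_congr rfl fun x _ => (Complex.mul_conj _).symm
    exact_mod_cast this
  have h3 : ∑ x ∈ Finset.univ.filter (· ∈ Z), Complex.normSq (θ x) ≤ (Nat.card X : ℝ) :=
    h2 ▸ Finset.sum_le_sum_of_subset_of_nonneg (Finset.subset_univ _)
      fun x _ _ => Complex.normSq_nonneg _
  rw [Finset.sum_congr rfl (g := fun _ => ((charDegree θ : ℝ)) ^ 2) fun x hx => by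
      rw [Complex.normSq_eq_norm_sq, norm_char_of_mem_center hθ (hZ (Finset.mem_filter.mp hx).2),
        apply_one_eq_charDegree (isCharacter_of_isIrr hθ), Complex.norm_natCast],
    Finset.sum_const, nsmul_eq_mul, show (Finset.univ.filter (· ∈ Z)).card = Nat.card Z by
      rw [Nat.card_eq_fintype_card]; exact (Fintype.card_subtype _).symm] at h3
  rw [mul_comm] at h3
  exact_mod_cast h3

variable {G : Type u} [Group G]

/-- The irreducible characters of `L` not trivial on `Z`. -/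
def relZ (L Z : Subgroup G) : Set (L → ℂ) :=
  {χ | IsIrrCharacter L χ ∧ ∃ z : L, (z : G) ∈ Z ∧ χ z ≠ χ 1}

/-- A nonabelian kernel of odd order has a normaliser of odd order. -/
theorem odd_card_of_nonabelian [Finite G] {L K : Subgroup G} (hF : OddPartition.IsFrobTI L K)
    (hKodd : Odd (Nat.card K)) (hna : ¬ IsMulCommutative K) : Odd (Nat.card L) := by
  by_contra hc
  rw [Nat.not_odd_iff_even, even_iff_two_dvd] at hc
  have : Fact (Nat.Prime 2) := ⟨Nat.prime_two⟩
  obtain ⟨t, ht⟩ := exists_prime_orderOf_dvd_card' (G := L) 2 hc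
  have htK : (t : G) ∉ K := by
    intro h
    have h2 := Subgroup.orderOf_dvd_natCard K h
    rw [Subgroup.orderOf_coe, ht] at h2
    exact Nat.not_even_iff_odd.mpr hKodd (even_iff_two_dvd.mpr h2)
  have htt : (t : G) * t = 1 := by
    have := pow_orderOf_eq_one t
    rw [ht, sq] at this
    exact congrArg Subtype.val this
  have ht' : (t : G)⁻¹ = t := inv_eq_of_mul_eq_one_right htt
  let φ : K →* K :=
    { toFun := fun k => ⟨t * k * (t : G)⁻¹, hF.conj_mem t t.2 k k.2⟩
      map_one' := by ext; simp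
      map_mul' := fun a b => by ext; simp [mul_assoc] }
  have hfix : MonoidHom.FixedPointFree φ := by
    intro k hk
    by_contra hk1
    refine htK (hF.centralizer_le k k.2 (fun h => hk1 (Subtype.ext h))
      (Subgroup.mem_centralizer_singleton_iff.mpr ?_))
    have h : (t : G) * k * (t : G)⁻¹ = k := congrArg Subtype.val hk
    rwa [mul_inv_eq_iff_eq_mul] at h
  have hinv : Function.Involutive φ := fun k => by
    ext
    show (t : G) * ((t : G) * k * (t : G)⁻¹) * (t : G)⁻¹ = k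
    rw [ht']
    calc (t : G) * (t * k * t) * t = ((t : G) * t) * k * ((t : G) * t) := by group
      _ = k := by rw [htt]; group
  exact hna ⟨⟨hfix.commute_all_of_involutive hinv⟩⟩

/-- The degrees of the characters not trivial on a `p`-group kernel. -/
theorem rel_degree [Fintype G] {L K : Subgroup G} [Fintype L] [(K.subgroupOf L).Normal]
    (hF : OddPartition.IsFrobTI L K) {p : ℕ} [hp : Fact p.Prime] (hP : IsPGroup p K)
    (Z : Subgroup G) (hZK : Z ≤ K) (hZc : ∀ z ∈ Z, ∀ k ∈ K, z * k = k * z)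
    {χ : L → ℂ} (hχ : χ ∈ relChars (K.subgroupOf L)) :
    ∃ k : ℕ, charDegree χ = (K.subgroupOf L).index * p ^ k ∧ (p ^ k) ^ 2 ≤ Z.relIndex K := by
  have := Fintype.ofFinite (K.subgroupOf L)
  obtain ⟨θ, hθ, -, rfl⟩ := exists_of_mem_relChars (kernel_centralizer hF) hχ
  have hPN : IsPGroup p (K.subgroupOf L) := hP.of_equiv (Subgroup.subgroupOfEquivOfLe hF.lt.le).symm
  obtain ⟨n, hn⟩ := IsPGroup.iff_card.mp hPN
  obtain ⟨k, -, hk⟩ := (Nat.dvd_prime_pow hp.out).mp (hn ▸ charDegree_dvd_card hθ)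
  refine ⟨k, by rw [charDegree_indFun _ (isCharacter_of_isIrr hθ), hk], ?_⟩
  let Z' : Subgroup (K.subgroupOf L) := (Z.subgroupOf L).subgroupOf (K.subgroupOf L)
  have hZ' : Z' ≤ Subgroup.center (K.subgroupOf L) := fun z hz =>
    Subgroup.mem_center_iff.mpr fun y =>
      Subtype.ext (Subtype.ext (hZc _ hz _ y.2).symm)
  have h := sq_degree_mul_card_le hθ Z' hZ'
  rw [hk, show Nat.card Z' = Nat.card Z from
    (Nat.card_congr (Subgroup.subgroupOfEquivOfLe (show Z.subgroupOf L ≤ K.subgroupOf L from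
      fun x hx => hZK hx)).toEquiv).trans
      (Nat.card_congr (Subgroup.subgroupOfEquivOfLe (hZK.trans hF.lt.le)).toEquiv),
    Nat.card_congr (Subgroup.subgroupOfEquivOfLe hF.lt.le).toEquiv] at h
  have h2 : Nat.card Z * Z.relIndex K = Nat.card K := by
    rw [Subgroup.relIndex, ← Nat.card_congr (Subgroup.subgroupOfEquivOfLe hZK).toEquiv,
      Subgroup.card_mul_index]
  rw [← h2, mul_comm] at h
  exact Nat.le_of_mul_le_mul_left h Nat.card_pos

variable [Fintype G] {L K : Subgroup G} [Fintype L] [(K.subgroupOf L).Normal]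

theorem relZ_subset (Z : Subgroup G) (hZK : Z ≤ K) : relZ L Z ⊆ relChars (K.subgroupOf L) :=
  fun _ ⟨h1, z, hz, hne⟩ => ⟨h1, z, hZK hz, hne⟩

open scoped Classical in
/-- The characters nontrivial on `Z`, as a finite set. -/
noncomputable def relZFinset (L Z : Subgroup G) [Fintype L] : Finset (L → ℂ) :=
  (Finset.univ.filter fun φ : IrrCharacter L => (φ : L → ℂ) ∈ relZ L Z).image Subtype.val

theorem coe_relZFinset (Z : Subgroup G) :
    (relZFinset L Z : Set (L → ℂ)) = relZ L Z := by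
  classical
  ext χ
  simp only [relZFinset, Finset.coe_image, Finset.coe_filter, Finset.mem_univ, true_and,
    Set.mem_image, Set.mem_setOf_eq]
  constructor
  · rintro ⟨φ, hφ, rfl⟩; exact hφ
  · intro h; exact ⟨⟨χ, h.1⟩, h, rfl⟩

theorem mem_relZFinset {Z : Subgroup G} {χ : L → ℂ} :
    χ ∈ relZFinset L Z ↔ χ ∈ relZ L Z := by rw [← Finset.mem_coe, coe_relZFinset]

/-- Facts about the characters nontrivial on a central normal subgroup of a nonabelian kernel. -/
theorem relZ_facts (hF : OddPartition.IsFrobTI L K) {p : ℕ} [hp : Fact p.Prime] (hp2 : p ≠ 2)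
    (hP : IsPGroup p K) (hna : ¬ IsMulCommutative K)
    (Z : Subgroup G) (hZ1 : Z ≠ ⊥) (hZK : Z ≤ K) (hZn : ∀ x ∈ L, ∀ z ∈ Z, x * z * x⁻¹ ∈ Z) :
    (∀ χ ∈ relZ L Z, conjFun χ ∈ relZ L Z ∧ conjFun χ ≠ χ) ∧
    (K.subgroupOf L).index * ∑ x ∈ relZFinset L Z, (charDegree x / (K.subgroupOf L).index) ^ 2 +
      Z.relIndex K = Z.relIndex K * Nat.card Z ∧ (relZFinset L Z).Nonempty ∧
    (K.subgroupOf L).index.Coprime p := by
  classical
  set e := (K.subgroupOf L).index with he
  have hKodd : Odd (Nat.card K) := by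
    obtain ⟨n, hn⟩ := IsPGroup.iff_card.mp hP
    rw [hn]
    exact (hp.out.odd_of_ne_two hp2).pow
  have hLodd := odd_card_of_nonabelian hF hKodd hna
  have hker := kernel_centralizer hF
  have hconj : ∀ χ ∈ relZ L Z, conjFun χ ∈ relZ L Z ∧ conjFun χ ≠ χ := by
    rintro χ ⟨hχ, z, hz, hne⟩
    refine ⟨⟨Lib.Char.isIrrCharacter_conj hχ, z, hz, fun h => hne ((starRingEnd ℂ).injective h)⟩,
      fun h => hne ?_⟩
    have := eq_one_of_real hLodd ⟨χ, hχ⟩ fun y => Complex.conj_eq_iff_im.mp (congrFun h y)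
    change χ = fun _ => 1 at this
    rw [this]
  set ZL := Z.subgroupOf L with hZL
  have hZLn : ZL.Normal := ⟨fun n hn x => hZn x x.2 n hn⟩
  have hZcard : Nat.card ZL = Nat.card Z :=
    Nat.card_congr (Subgroup.subgroupOfEquivOfLe (hZK.trans hF.lt.le)).toEquiv
  have hKcard : Nat.card (K.subgroupOf L) = Nat.card K :=
    Nat.card_congr (Subgroup.subgroupOfEquivOfLe hF.lt.le).toEquiv
  have hZm : Nat.card Z * Z.relIndex K = Nat.card K := by
    rw [Subgroup.relIndex, ← Nat.card_congr (Subgroup.subgroupOfEquivOfLe hZK).toEquiv,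
      Subgroup.card_mul_index]
  have hindex : ZL.index = e * Z.relIndex K := by
    have h1 := ZL.card_mul_index
    rw [← (K.subgroupOf L).card_mul_index, hKcard, hZcard, ← hZm, mul_assoc] at h1
    rw [mul_comm e]
    exact Nat.eq_of_mul_eq_mul_left Nat.card_pos h1
  have hsplit : ∑ φ ∈ Finset.univ.filter (fun φ : IrrCharacter L => (φ : L → ℂ) ∈ relZ L Z),
      charDegree (φ : L → ℂ) ^ 2 + ZL.index = Nat.card L := by
    have h := CharKernel.sum_trivialOn_degree_mul (G := L) (N := ZL) 1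
    rw [if_pos ZL.one_mem] at h
    have e1 : ∑ φ ∈ Finset.univ.filter
        (fun φ : IrrCharacter L => ∀ n ∈ ZL, (φ : L → ℂ) n = (φ : L → ℂ) 1),
        charDegree (φ : L → ℂ) ^ 2 = ZL.index := by
      refine Nat.cast_injective (R := ℂ) ?_
      rw [← h]
      push_cast
      refine Finset.sum_congr (by ext φ; simp) fun φ _ => ?_
      rw [apply_one_eq_charDegree (isCharacter_of_isIrr φ.2), sq]
    rw [← sum_charDegree_sq (G := L), ← e1, ← Finset.sum_filter_add_sum_filter_not Finset.univ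
      (fun φ : IrrCharacter L => (φ : L → ℂ) ∈ relZ L Z)]
    congr 1
    refine Finset.sum_congr ?_ fun _ _ => rfl
    ext φ
    simp [relZ, φ.2, hZL, Subgroup.mem_subgroupOf]
    exact ⟨fun h x hx hxL => h x hxL hx, fun h x hxL hx => h x hx hxL⟩
  have heq : e * ∑ x ∈ relZFinset L Z, (charDegree x / e) ^ 2 + Z.relIndex K =
      Z.relIndex K * Nat.card Z := by
    rw [relZFinset, Finset.sum_image fun a _ b _ h => Subtype.ext h]
    have e2 : ∀ φ ∈ Finset.univ.filter (fun φ : IrrCharacter L => (φ : L → ℂ) ∈ relZ L Z),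
        charDegree (φ : L → ℂ) ^ 2 = e * (e * (charDegree (φ : L → ℂ) / e) ^ 2) := by
      intro φ hφ
      have := Fintype.ofFinite (K.subgroupOf L)
      obtain ⟨θ, hθ, -, h⟩ :=
        exists_of_mem_relChars hker (relZ_subset Z hZK (Finset.mem_filter.mp hφ).2)
      rw [h, charDegree_indFun _ (isCharacter_of_isIrr hθ), Nat.mul_div_cancel_left _
        (Nat.pos_of_ne_zero Subgroup.index_ne_zero_of_finite)]
      ring
    rw [Finset.sum_congr rfl e2, ← Finset.mul_sum, ← Finset.mul_sum, hindex, ← mul_add,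
      ← (K.subgroupOf L).card_mul_index, hKcard, mul_comm (Nat.card K), ← hZm,
      mul_comm (Nat.card Z)] at hsplit
    exact Nat.eq_of_mul_eq_mul_left (Nat.pos_of_ne_zero Subgroup.index_ne_zero_of_finite) hsplit
  refine ⟨hconj, heq, ?_, ?_⟩
  · rw [Finset.nonempty_iff_ne_empty]
    intro h0
    rw [h0, Finset.sum_empty, mul_zero, zero_add] at heq
    have h2 : 1 < Nat.card Z := Subgroup.one_lt_card_iff_ne_bot Z |>.mpr hZ1
    have hpos : 0 < Z.relIndex K := Nat.pos_of_ne_zero Subgroup.index_ne_zero_of_finite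
    nlinarith
  · -- an element of order `p` outside the kernel would centralise a point of it
    rw [Nat.coprime_comm, hp.out.coprime_iff_not_dvd]
    intro hpe
    let Q : Sylow p L := default
    have hNle : K.subgroupOf L ≤ (Q : Subgroup L) := by
      obtain ⟨Q', hQ'⟩ := (hP.of_equiv (Subgroup.subgroupOfEquivOfLe hF.lt.le).symm).exists_le_sylow
      obtain ⟨g, hg⟩ := MulAction.exists_smul_eq L Q' Q
      intro x hx
      rw [← hg, Sylow.coe_subgroup_smul]
      exact ⟨g⁻¹ * x * g, hQ' (by simpa using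
        (inferInstance : (K.subgroupOf L).Normal).conj_mem x hx g⁻¹), by simp [mul_assoc]⟩
    have : Nontrivial (Q : Subgroup L) := by
      rw [Subgroup.nontrivial_iff_ne_bot]
      intro hb
      refine hF.ne_bot (Subgroup.eq_bot_iff_forall K |>.mpr fun x hx => ?_)
      have h1 : (⟨x, hF.lt.le hx⟩ : L) ∈ (Q : Subgroup L) := hNle hx
      rw [hb, Subgroup.mem_bot] at h1
      exact congrArg Subtype.val h1
    have := Q.2.center_nontrivial
    obtain ⟨⟨w, hw⟩, hw1⟩ := exists_ne (1 : Subgroup.center (Q : Subgroup L))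
    have hw1' : w ≠ 1 := fun h => hw1 (Subtype.ext h)
    obtain ⟨k, hk⟩ := Subgroup.ne_bot_iff_exists_ne_one.mp hF.ne_bot
    let k' : L := ⟨k, hF.lt.le k.2⟩
    have hkQ : k' ∈ (Q : Subgroup L) := hNle (show (k : G) ∈ K from k.2)
    have hwk : (w : L) ∈ K.subgroupOf L :=
      hker k' k.2 (fun h => hk (Subtype.ext (congrArg Subtype.val h :)))
        (Subgroup.mem_centralizer_singleton_iff.mpr
          (congrArg Subtype.val (Subgroup.mem_center_iff.mp hw ⟨k', hkQ⟩)).symm)
    refine Q.not_dvd_index (hpe.trans (Subgroup.index_dvd_of_le (?_ : (Q : Subgroup L) ≤ _)) ) |>.elim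
    intro x hx
    exact hker w hwk (fun h => hw1' (Subtype.ext h)) (Subgroup.mem_centralizer_singleton_iff.mpr
      (congrArg Subtype.val (Subgroup.mem_center_iff.mp hw ⟨x, hx⟩)))

/-- The characters nontrivial on a central normal subgroup are coherent. -/
theorem sibley_central (hF : OddPartition.IsFrobTI L K) {p : ℕ} [hp : Fact p.Prime] (hp2 : p ≠ 2)
    (hP : IsPGroup p K) (hna : ¬ IsMulCommutative K)
    (Z : Subgroup G) (hZ1 : Z ≠ ⊥) (hZK : Z ≤ K) (hZc : ∀ z ∈ Z, ∀ k ∈ K, z * k = k * z)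
    (hZn : ∀ x ∈ L, ∀ z ∈ Z, x * z * x⁻¹ ∈ Z) :
    IsCoherent (relZ L Z) {1}ᶜ (fun α : L → ℂ => indFun L α) := by
  classical
  obtain ⟨hconj, heq, hne, hcop⟩ := relZ_facts hF hp2 hP hna Z hZ1 hZK hZn
  set e := (K.subgroupOf L).index with he
  have he0 : 0 < e := Nat.pos_of_ne_zero Subgroup.index_ne_zero_of_finite
  rw [← coe_relZFinset]
  set W := relZFinset L Z with hW
  have hk : ∀ x ∈ W, ∃ k, charDegree x = e * p ^ k ∧ (p ^ k) ^ 2 ≤ Z.relIndex K := fun x hx =>
    rel_degree hF hP Z hZK hZc (relZ_subset Z hZK (mem_relZFinset.mp hx))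
  choose! k hk using hk
  obtain ⟨χ₁, hχ₁, hmin⟩ := Finset.exists_min_image W k hne
  obtain ⟨a, ha⟩ : ∃ a, Z.relIndex K = p ^ a := by
    obtain ⟨n, hn⟩ := IsPGroup.iff_card.mp hP
    obtain ⟨a, -, h⟩ := (Nat.dvd_prime_pow hp.out).mp
      (hn ▸ Subgroup.index_dvd_card (Z.subgroupOf K) : Z.relIndex K ∣ p ^ n)
    exact ⟨a, h⟩
  let d : (L → ℂ) → ℕ := fun x => p ^ (k x - k χ₁)
  have hDk : ∀ x ∈ W, charDegree x / e = p ^ k x := fun x hx => by
    rw [(hk x hx).1, Nat.mul_div_cancel_left _ he0]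
  have hdk : ∀ x ∈ W, p ^ k x = d x * p ^ k χ₁ := fun x hx => by
    rw [← pow_add, Nat.sub_add_cancel (hmin x hx)]
  have hsub : (W : Set (L → ℂ)) ⊆ relChars (K.subgroupOf L) := by
    rw [hW, coe_relZFinset]; exact relZ_subset Z hZK
  obtain ⟨hiso, hzero⟩ := indFun_isometry hF
  have hmono : zspanOn (W : Set (L → ℂ)) {1}ᶜ ⊆ zspanOn (relChars (K.subgroupOf L)) {1}ᶜ :=
    fun α hα => ⟨zspan_mono hsub hα.1, hα.2⟩
  refine coherent_of_feit (d := d) (χ₁ := χ₁) W (fun x hx => (mem_relZFinset.mp hx).1)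
    ⟨fun a ha b hb => hiso.1 a (hmono ha) b (hmono hb), fun a ha n => hiso.2.1 a (hmono ha) n,
      fun a ha b hb => hiso.2.2.1 a (hmono ha) b (hmono hb), fun a ha => hiso.2.2.2 a (hmono ha)⟩
    (fun α hα => hzero α (hmono hα)) (fun x hx => ?_) (by simp [d]) hχ₁
    ⟨conjFun χ₁, mem_relZFinset.mpr (hconj _ (mem_relZFinset.mp hχ₁)).1,
      (hconj _ (mem_relZFinset.mp hχ₁)).2⟩ fun x hx hx1 => ?_
  · rw [apply_one_eq_charDegree (isCharacter_of_isIrr (mem_relZFinset.mp hx).1),
      apply_one_eq_charDegree (isCharacter_of_isIrr (mem_relZFinset.mp hχ₁).1), (hk x hx).1,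
      (hk χ₁ hχ₁).1, hdk x hx]
    push_cast
    ring
  · -- the congruence modulo the square of the degree
    have hlt : k χ₁ < k x := lt_of_le_of_ne (hmin x hx) fun h => hx1 (by simp [d, h])
    set B := W.filter (fun y => d y < d x) with hB
    have hBk : ∀ y ∈ W, (d y < d x ↔ k y < k x) := fun y hy => by
      show p ^ (k y - k χ₁) < p ^ (k x - k χ₁) ↔ _
      rw [Nat.pow_lt_pow_iff_right hp.out.one_lt]
      have := hmin y hy
      omega
    have h1 : e * ∑ y ∈ W, (p ^ k y) ^ 2 + p ^ a = p ^ a * Nat.card Z := by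
      rw [← ha, ← heq]
      congr 2
      exact Finset.sum_congr rfl fun y hy => by rw [hDk y hy]
    have h2a : 2 * k x ≤ a := by
      have := (hk x hx).2
      rw [ha, ← pow_mul, mul_comm] at this
      exact (Nat.pow_le_pow_iff_right hp.out.one_lt).mp this
    have hdvd : (p ^ k x) ^ 2 ∣ e * ∑ y ∈ B, (p ^ k y) ^ 2 := by
      have hpa : (p ^ k x) ^ 2 ∣ p ^ a := by rw [← pow_mul, mul_comm]; exact pow_dvd_pow p h2a
      rw [← Finset.sum_filter_add_sum_filter_not W (fun y => d y < d x), mul_add] at h1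
      refine (Nat.dvd_add_left (?_ : (p ^ k x) ^ 2 ∣ e * ∑ y ∈ W.filter (fun y => ¬ d y < d x),
        (p ^ k y) ^ 2 + p ^ a)).mp ?_
      · refine Nat.dvd_add (Dvd.dvd.mul_left (Finset.dvd_sum fun y hy => ?_) _) hpa
        obtain ⟨hyW, hyx⟩ := Finset.mem_filter.mp hy
        rw [hBk y hyW] at hyx
        exact pow_dvd_pow_of_dvd (pow_dvd_pow p (by omega)) 2
      · rw [← add_assoc, h1]
        exact hpa.mul_right _
    have hdvd' : (p ^ k x) ^ 2 ∣ ∑ y ∈ B, (p ^ k y) ^ 2 :=
      (((Nat.Coprime.pow_right (k x) hcop).pow_right 2).symm).dvd_of_dvd_mul_left hdvd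
    have hBpos : 0 < ∑ y ∈ B, (p ^ k y) ^ 2 := by
      refine Finset.sum_pos (fun y _ => pow_pos (pow_pos hp.out.pos _) 2) ⟨χ₁, ?_⟩
      exact Finset.mem_filter.mpr ⟨hχ₁, (hBk χ₁ hχ₁).mpr hlt⟩
    have hle := Nat.le_of_dvd hBpos hdvd'
    rw [hdk x hx, Finset.sum_congr rfl (g := fun y => d y ^ 2 * (p ^ k χ₁) ^ 2) fun y hy => by
      rw [hdk y (Finset.mem_filter.mp hy).1, mul_pow], ← Finset.sum_mul, mul_pow] at hle
    have h3 : d x ^ 2 ≤ ∑ y ∈ B, d y ^ 2 :=
      Nat.le_of_mul_le_mul_right hle (pow_pos (pow_pos hp.out.pos _) 2)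
    have h4 : 3 ≤ d x := by
      refine le_trans ?_ (Nat.le_self_pow (show k x - k χ₁ ≠ 0 by omega) p)
      have := hp.out.two_le
      omega
    nlinarith

end Cfsg.Agent.Lib.Dade
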