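import Cfsg.Agent.Lib.Dade.Sibley
import Cfsg.Agent.S1535
import Mathlib.Tactic

/-!
The coherence theorem of Feit and Sibley for a TI kernel.
-/

set_option autoImplicit false

open scoped ComplexConjugate

namespace Cfsg.Agent.Lib.Dade

open Cfsg Cfsg.Agent.Lib.Char

universe u

variable {G : Type u} [Group G] [Fintype G] {L K : Subgroup G} [Fintype L]
  [(K.subgroupOf L).Normal] (hF : OddPartition.IsFrobTI L K)
include hF

/-- When the kernel has one more element than the index there is a single relevant character and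
the kernel is elementary abelian. -/
theorem frob_one_case (hcard : Nat.card K = (K.subgroupOf L).index + 1) :
    Nat.card (relChars (K.subgroupOf L)) = 1 ∧ ∃ p : ℕ, p.Prime ∧ IsElementaryAbelian p K := by
  classical
  set N0 := K.subgroupOf L with hN0
  have := Fintype.ofFinite N0
  set e := N0.index with he
  have he0 : 0 < e := Nat.pos_of_ne_zero Subgroup.index_ne_zero_of_finite
  have hK1 : K ≠ ⊥ := hF.ne_bot
  -- the nontrivial elements of `K` are conjugate
  have htrans : ∀ x ∈ K, x ≠ 1 → ∀ y ∈ K, y ≠ 1 → ∃ g : L, (g : G) * x * (g : G)⁻¹ = y := by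
    intro x hx hx1 y hy hy1
    let P := {z : G // z ∈ K ∧ z ≠ 1}
    let F : L ⧸ N0 → P := fun q => ⟨(q.out : G) * x * (q.out : G)⁻¹,
      hF.conj_mem _ q.out.2 x hx, fun h => hx1 (conj_eq_one_iff.mp h)⟩
    have hFinj : Function.Injective F := by
      intro q q' h
      rw [← QuotientGroup.out_eq' q, ← QuotientGroup.out_eq' q', QuotientGroup.eq]
      have h' : (q.out : G) * x * (q.out : G)⁻¹ = (q'.out : G) * x * (q'.out : G)⁻¹ :=
        congrArg Subtype.val h
      refine hF.centralizer_le x hx hx1 (Subgroup.mem_centralizer_singleton_iff.mpr ?_)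
      show (q.out : G)⁻¹ * q'.out * x = x * ((q.out : G)⁻¹ * q'.out)
      calc (q.out : G)⁻¹ * q'.out * x
          = (q.out : G)⁻¹ * ((q'.out : G) * x * (q'.out : G)⁻¹) * q'.out := by group
        _ = x * ((q.out : G)⁻¹ * q'.out) := by rw [← h']; group
    have hsurj : Function.Surjective F := by
      refine (hFinj.bijective_of_nat_card_le (le_of_eq ?_)).2
      rw [← Subgroup.index_eq_card, ← he]
      have : Nat.card P + 1 = Nat.card K := by
        rw [show Nat.card P = ((K : Set G) \ {1}).ncard from Nat.card_coe_set_eq _,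
          Set.ncard_sdiff_singleton_add_one K.one_mem (Set.toFinite _), ← Nat.card_coe_set_eq]
        rfl
      omega
    obtain ⟨q, hq⟩ := hsurj ⟨y, hy, hy1⟩
    exact ⟨q.out, congrArg Subtype.val hq⟩
  obtain ⟨p, hp, hpd⟩ := Nat.exists_prime_and_dvd
    (fun h => hK1 (Subgroup.card_eq_one.mp h) : Nat.card K ≠ 1)
  have : Fact p.Prime := ⟨hp⟩
  obtain ⟨w, hw⟩ := exists_prime_orderOf_dvd_card' (G := K) p hpd
  have hw1 : (w : G) ≠ 1 := fun h => hp.ne_one (by
    rw [← hw, ← Subgroup.orderOf_coe, h, orderOf_one])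
  have hexp : ∀ a ∈ K, a ^ p = 1 := by
    intro a ha
    rcases eq_or_ne a 1 with rfl | ha1
    · exact one_pow p
    obtain ⟨g, hg⟩ := htrans w w.2 hw1 a ha ha1
    rw [← hg, conj_pow, ← hw, ← Subgroup.orderOf_coe, pow_orderOf_eq_one, mul_one, mul_inv_cancel]
  have hKp : IsPGroup p K := fun a => ⟨1, Subtype.ext (by simpa using hexp a a.2)⟩
  have : Nontrivial K := K.nontrivial_iff_ne_bot.mpr hK1
  have := hKp.center_nontrivial
  obtain ⟨⟨z, hz⟩, hz1'⟩ := exists_ne (1 : Subgroup.center K)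
  have hz1 : (z : G) ≠ 1 := fun h => hz1' (Subtype.ext (Subtype.ext h))
  have hab : ∀ a ∈ K, ∀ b ∈ K, a * b = b * a := by
    intro a ha b hb
    rcases eq_or_ne a 1 with rfl | ha1
    · rw [one_mul, mul_one]
    obtain ⟨g, hg⟩ := htrans z z.2 hz1 a ha ha1
    have hb' : (g : G)⁻¹ * b * g ∈ K := by simpa using hF.conj_mem _ (L.inv_mem g.2) b hb
    have h2 : (g : G)⁻¹ * b * g * z = z * ((g : G)⁻¹ * b * g) :=
      congrArg Subtype.val (Subgroup.mem_center_iff.mp hz ⟨_, hb'⟩)
    rw [← hg]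
    calc (g : G) * z * (g : G)⁻¹ * b = g * (z * ((g : G)⁻¹ * b * g)) * (g : G)⁻¹ := by group
      _ = g * ((g : G)⁻¹ * b * g * z) * (g : G)⁻¹ := by rw [h2]
      _ = b * (g * z * (g : G)⁻¹) := by group
  have hdeg : ∀ φ : IrrCharacter L, (φ : L → ℂ) ∈ relChars N0 → charDegree (φ : L → ℂ) = e := by
    intro φ hφ
    have : IsMulCommutative N0 :=
      ⟨⟨fun a b => Subtype.ext (Subtype.ext (hab _ a.2 _ b.2))⟩⟩
    obtain ⟨θ, hθ, -, h⟩ := exists_of_mem_relChars (kernel_centralizer hF) hφ
    obtain ⟨k, ρ, hρ, hρ'⟩ := hθ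
    rw [h, charDegree_eq_of_apply_one (n := e) (by
      rw [indFun_one, ← hρ', Representation.char_one,
        Representation.IsIrreducible.finrank_eq_one_of_isMulCommutative ρ, Nat.cast_one, mul_one])]
  have hsum : ∑ φ ∈ Finset.univ.filter (fun φ : IrrCharacter L => (φ : L → ℂ) ∈ relChars N0),
      charDegree (φ : L → ℂ) ^ 2 + e = Nat.card L := by
    have h := CharKernel.sum_trivialOn_degree_mul (G := L) (N := N0) 1
    rw [if_pos N0.one_mem] at h
    have e1 : ∑ φ ∈ Finset.univ.filter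
        (fun φ : IrrCharacter L => ∀ n ∈ N0, (φ : L → ℂ) n = (φ : L → ℂ) 1),
        charDegree (φ : L → ℂ) ^ 2 = e := by
      refine Nat.cast_injective (R := ℂ) ?_
      rw [← h]
      push_cast
      refine Finset.sum_congr (by ext φ; simp) fun φ _ => ?_
      rw [apply_one_eq_charDegree (isCharacter_of_isIrr φ.2), sq]
    rw [← sum_charDegree_sq (G := L), ← e1, ← Finset.sum_filter_add_sum_filter_not Finset.univ
      (fun φ : IrrCharacter L => (φ : L → ℂ) ∈ relChars N0)]
    congr 1
    refine Finset.sum_congr ?_ fun _ _ => rfl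
    ext φ
    simp [relChars, φ.2]
  rw [Finset.sum_congr rfl (g := fun _ => e ^ 2) fun φ hφ => by
      rw [hdeg φ (Finset.mem_filter.mp hφ).2],
    Finset.sum_const, smul_eq_mul, ← N0.card_mul_index, ← he,
    Nat.card_congr (Subgroup.subgroupOfEquivOfLe hF.lt.le).toEquiv, hcard] at hsum
  refine ⟨?_, p, hp, ⟨⟨⟨fun a b => Subtype.ext (hab _ a.2 _ b.2)⟩⟩, hexp⟩⟩
  have h1 : Nat.card (relChars N0) =
      (Finset.univ.filter (fun φ : IrrCharacter L => (φ : L → ℂ) ∈ relChars N0)).card := by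
    rw [← Fintype.card_subtype, ← Nat.card_eq_fintype_card]
    exact Nat.card_congr
      { toFun := fun x => ⟨⟨x.1, x.2.1⟩, x.2⟩
        invFun := fun x => ⟨x.1.1, x.2⟩
        left_inv := fun _ => rfl
        right_inv := fun _ => rfl }
  rw [h1]
  refine Nat.eq_of_mul_eq_mul_right (pow_pos he0 2) ?_
  rw [one_mul]
  linarith

/-- A `p`-group kernel is a Sylow subgroup. -/
theorem exists_sylow_eq {p : ℕ} [hp : Fact p.Prime] (hP : IsPGroup p K) :
    ∃ P : Sylow p G, (P : Subgroup G) = K := by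
  obtain ⟨P, hKP⟩ := hP.exists_le_sylow
  have : Nontrivial (P : Subgroup G) := by
    rw [Subgroup.nontrivial_iff_ne_bot]
    exact fun h => hF.ne_bot (le_bot_iff.mp (h ▸ hKP))
  have := P.2.center_nontrivial
  obtain ⟨⟨w, hw⟩, hw1⟩ := exists_ne (1 : Subgroup.center (P : Subgroup G))
  have hw1' : (w : G) ≠ 1 := fun h => hw1 (Subtype.ext (Subtype.ext h))
  obtain ⟨k, hk⟩ := Subgroup.ne_bot_iff_exists_ne_one.mp hF.ne_bot
  have hwK : (w : G) ∈ K := hF.centralizer_le k k.2 (fun h => hk (Subtype.ext h))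
    (Subgroup.mem_centralizer_singleton_iff.mpr
      (congrArg Subtype.val (Subgroup.mem_center_iff.mp hw ⟨k, hKP k.2⟩)).symm)
  exact ⟨P, le_antisymm (fun x hx => hF.centralizer_le w hwK hw1'
    (Subgroup.mem_centralizer_singleton_iff.mpr
      (congrArg Subtype.val (Subgroup.mem_center_iff.mp hw ⟨x, hx⟩)))) hKP⟩

/-- Feit and Sibley: coherence, or a small Sylow 2 kernel. -/
theorem frob_coherent_or (hLN : L = Subgroup.normalizer (K : Set G))
    (hne : Nat.card K ≠ (K.subgroupOf L).index + 1) :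
    IsCoherent (relChars (K.subgroupOf L)) {1}ᶜ (fun α : L → ℂ => indFun L α) ∨
      (Nat.card K = 2 ^ (Nat.card G).factorization 2 ∧
        (⁅K, K⁆.subgroupOf K).index < 4 * (K.subgroupOf L).index ^ 2) := by
  classical
  set N0 := K.subgroupOf L with hN0
  have hcard : Nat.card N0 = Nat.card K :=
    Nat.card_congr (Subgroup.subgroupOfEquivOfLe hF.lt.le).toEquiv
  let ε : N0 ≃* K := Subgroup.subgroupOfEquivOfLe hF.lt.le
  have hN1 : N0 ≠ ⊥ := fun h => hF.ne_bot (Subgroup.card_eq_one.mp (by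
    rw [← hcard, h, Subgroup.card_bot]))
  obtain ⟨hiso, hzero⟩ := indFun_isometry hF
  rcases S1535.result N0 hN1 (fun h => hF.lt.not_ge (Subgroup.subgroupOf_eq_top.mp h))
    (kernel_centralizer hF) (hcard.trans_ne hne) (fun α : L → ℂ => indFun L α) hiso hzero with
    h | ⟨p, hp, ⟨m, hm⟩, hna, ha⟩
  · exact Or.inl h
  have : Fact p.Prime := ⟨hp⟩
  have hP : IsPGroup p K := IsPGroup.of_card (n := m) (hcard ▸ hm)
  have hnaK : ¬ IsMulCommutative K := fun h => hna ⟨⟨fun a b =>
    ε.injective (by rw [map_mul, map_mul]; exact h.is_comm.comm _ _)⟩⟩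
  obtain ⟨P, hPK⟩ := exists_sylow_eq hF hP
  rcases eq_or_ne p 2 with rfl | hp2
  · refine Or.inr ⟨?_, ?_⟩
    · rw [← hPK]; exact P.card_eq_multiplicity
    have hidx : ∀ {X : Type u} [Group X] (H : Subgroup X),
        (⁅H, H⁆.subgroupOf H).index = (commutator H).index := fun H => by
      congr 1
      rw [← Subgroup.map_subtype_commutator, Subgroup.subgroupOf,
        Subgroup.comap_map_eq_self_of_injective H.subtype_injective]
    have hcom : (commutator K).index = (commutator N0).index := by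
      rw [← Subgroup.index_map_equiv (commutator N0) ε]
      congr 1
      rw [commutator_def, commutator_def, Subgroup.map_commutator,
        Subgroup.map_top_of_surjective _ ε.surjective]
    rw [hidx N0, ← hcom] at ha
    rw [hidx]
    have hlt : commutator K ≠ ⊤ := by
      have : Nontrivial K := K.nontrivial_iff_ne_bot.mpr hF.ne_bot
      have : Group.IsNilpotent K := hP.isNilpotent
      exact (Group.IsSolvable.commutator_lt_top_of_nontrivial K).ne
    obtain ⟨j, hj⟩ := hP.index (commutator K)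
    have hj0 : j ≠ 0 := fun h => hlt (Subgroup.index_eq_one.mp (by rw [hj, h, pow_zero]))
    have he2 : ¬ 2 ∣ N0.index := fun h => P.not_dvd_index (h.trans (by
      rw [hPK, ← Subgroup.relIndex_mul_index hF.lt.le]
      exact dvd_mul_right _ _))
    have he1 : 1 < N0.index :=
      Subgroup.one_lt_index_of_ne_top fun h => hF.lt.not_ge (Subgroup.subgroupOf_eq_top.mp h)
    rw [hj] at ha ⊢
    rcases lt_trichotomy (2 ^ j) (4 * N0.index ^ 2) with h | h | h
    · exact h
    · exfalso
      have h' : N0.index ∣ 2 ^ j := h ▸ (dvd_pow_self _ two_ne_zero).mul_left 4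
      obtain ⟨i, -, hi⟩ := (Nat.dvd_prime_pow Nat.prime_two).mp h'
      rcases Nat.eq_zero_or_pos i with h0 | h0
      · rw [h0] at hi; omega
      · exact he2 (hi ▸ dvd_pow_self 2 h0.ne')
    · exfalso
      have h2 : 2 ∣ 2 ^ j := dvd_pow_self 2 hj0
      omega
  · exact Or.inl (sibley_full hp2 P hPK hLN hF hnaK)

end Cfsg.Agent.Lib.Dade
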